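import Cfsg.Agent.Asch.SubfieldC5

/-!
Burnside's theorem: an absolutely irreducible group of matrices spans the whole matrix algebra.
-/

set_option autoImplicit false
set_option linter.unusedSectionVars false

namespace Cfsg.Agent.OCase

open Module Cfsg.Geo Cfsg.Agent.Asch

open scoped Matrix MatrixGroups

variable {ι : Type} [Fintype ι] [DecidableEq ι] {F : Type*} [Field F]

theorem spanAlg_eq_top_of_absIrred {R : Subgroup (GL ι F)} (h : ActsAbsolutelyIrreducibly (matrixSet R)) (hne : Nonempty ι) :
    spanAlg R = ⊤ := by
  classical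
  set A := spanAlg R with hA
  have hsmul : ∀ (a : A) (v : ι → F), a • v = (a : Module.End F (ι → F)) v := fun a v => rfl
  -- simple
  haveI hsimple : IsSimpleModule A (ι → F) := by
    refine { toIsSimpleOrder := ⟨fun W => ?_⟩ }
    have h1 := h.1 (W.restrictScalars F) (by
      rintro _ ⟨g, hg, rfl⟩
      rintro _ ⟨v, hv, rfl⟩
      have := W.smul_mem (⟨_, toLin'_mem_spanAlg hg⟩ : A) hv
      exact this)
    rcases h1 with h1 | h1
    · left
      rw [eq_bot_iff]
      intro x hx
      have : x ∈ W.restrictScalars F := hx
      rw [h1] at this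
      exact (Submodule.mem_bot _).2 ((Submodule.mem_bot _).1 this)
    · right
      rw [eq_top_iff]
      intro x _
      have : x ∈ W.restrictScalars F := by rw [h1]; trivial
      exact this
  -- endomorphisms
  have hend : ∀ f : Module.End A (ι → F), ∃ c : F, ∀ v, f v = c • v := by
    intro f
    have hF : ∀ (c : F) (v : ι → F), f (c • v) = c • f v := by
      intro c v
      have := f.map_smul (algebraMap F A c) v
      exact this
    let f' : Module.End F (ι → F) := { toFun := f, map_add' := f.map_add, map_smul' := fun c v => hF c v }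
    obtain ⟨c, hc⟩ := h.2 (LinearMap.toMatrix' f') (by
      rintro _ ⟨g, hg, rfl⟩
      apply Matrix.toLin'.injective
      rw [Matrix.toLin'_mul, Matrix.toLin'_mul, Matrix.toLin'_toMatrix']
      refine LinearMap.ext fun v => ?_
      exact f.map_smul (⟨_, toLin'_mem_spanAlg hg⟩ : A) v)
    refine ⟨c, fun v => ?_⟩
    have h2 : Matrix.toLin' (LinearMap.toMatrix' f') v = f v := by rw [Matrix.toLin'_toMatrix']; rfl
    rw [← h2, hc]
    simp
  rw [eq_top_iff]
  intro T _
  let T' : Module.End (Module.End A (ι → F)) (ι → F) :=
    { toFun := T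
      map_add' := T.map_add
      map_smul' := by
        intro f v
        obtain ⟨c, hc⟩ := hend f
        change T (f v) = f (T v)
        rw [hc, hc, T.map_smul] }
  obtain ⟨r, hr⟩ := jacobson_density (R := A) (M := ι → F) T' (Finset.univ.image fun i : ι => (Pi.single i (1 : F) : ι → F))
  have hT : T = (r : Module.End F (ι → F)) := by
    refine LinearMap.pi_ext' fun i => ?_
    ext
    simp only [LinearMap.comp_apply, LinearMap.single_apply]
    have := hr (Pi.single i 1) (Finset.mem_image_of_mem _ (Finset.mem_univ i))
    exact congrFun this _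
  rw [hT]
  exact r.2

theorem span_matrixSet_of_absIrred {R : Subgroup (GL ι F)} (h : ActsAbsolutelyIrreducibly (matrixSet R))
    (hne : Nonempty ι) : Submodule.span F (matrixSet R) = ⊤ :=
  span_matrixSet_eq_top (spanAlg_eq_top_of_absIrred h hne)

end Cfsg.Agent.OCase
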