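import Cfsg.Agent.OCase.ExtTwo
import Cfsg.Agent.AschCases.FieldSub

/-!
Normalisers of self-adjoint field subalgebras of `M_n(F)`.
-/

set_option autoImplicit false
set_option linter.unusedSectionVars false

namespace Cfsg.Agent.OCase

open QuadraticMap Module Cfsg.Agent.Orth Cfsg.Geo
open scoped Matrix

section phi

variable {F E V : Type*} [Field F] [Finite F] [Field E] [Algebra F E] [FiniteDimensional F E]
  [AddCommGroup V] [Module F V] [FiniteDimensional F V] {Q : QuadraticForm F V}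

theorem even_of_phi (φ : E →ₐ[F] Module.End F V) (hs : ∀ e v w, polar Q (φ e v) w = polar Q v (φ e w))
    (hQ : (polarBilin Q).Nondegenerate) (h2 : (2 : F) = 0) {k : ℕ} (hk : finrank F V = finrank F E * k) :
    Even k := by
  letI : Module E V := Module.compHom V (φ : E →+* Module.End F V)
  have hsmul : ∀ (k : E) (v : V), k • v = φ k v := fun k v => rfl
  haveI : IsScalarTower F E V := by
    refine ⟨fun c k v => ?_⟩
    rw [hsmul, hsmul, _root_.map_smul, LinearMap.smul_apply]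
  haveI : Finite E := finite_ext F E
  haveI : Finite V := Module.finite_of_finite F
  haveI : FiniteDimensional E V := inferInstance
  have hs' : SA E Q := hs
  have h1 := even_finrank_of_two_eq_zero (QE_nondeg hs' hQ) (two_alg h2)
  have h3 := Module.finrank_mul_finrank F E V
  rw [hk] at h3
  have h4 : finrank E V = k := Nat.eq_of_mul_eq_mul_left Module.finrank_pos h3
  rwa [h4] at h1

theorem exists_sigma (φ : E →ₐ[F] Module.End F V) (hV : 0 < finrank F V) (g : V ≃ₗ[F] V)
    (h : ∀ e, ∃ e', ∀ v, g (φ e v) = φ e' (g v)) :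
    ∃ σ : E ≃ₐ[F] E, ∀ e v, g (φ e v) = φ (σ e) (g v) := by
  haveI : Nontrivial V := Module.finrank_pos_iff.1 hV
  have hinj : Function.Injective φ := φ.toRingHom.injective
  choose s hs using h
  have huniq : ∀ e e', (∀ v, g (φ e v) = φ e' (g v)) → s e = e' := by
    intro e e' he
    apply hinj
    refine LinearMap.ext fun w => ?_
    obtain ⟨v, rfl⟩ := g.surjective w
    rw [← hs, he]
  let σ : E →ₐ[F] E :=
    { toFun := s
      map_one' := huniq _ _ fun v => by rw [_root_.map_one]; rfl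
      map_mul' := fun x y => huniq _ _ fun v => by
        rw [_root_.map_mul, _root_.map_mul, Module.End.mul_apply, Module.End.mul_apply, hs, hs]
      map_zero' := huniq _ _ fun v => by rw [_root_.map_zero]; exact _root_.map_zero g
      map_add' := fun x y => huniq _ _ fun v => by
        rw [_root_.map_add, _root_.map_add, LinearMap.add_apply, LinearMap.add_apply, _root_.map_add, hs, hs]
      commutes' := fun r => huniq _ _ fun v => by
        rw [AlgHom.commutes, Module.algebraMap_end_apply, Module.algebraMap_end_apply, _root_.map_smul] }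
  haveI : Finite E := finite_ext F E
  have hb : Function.Bijective σ := Finite.injective_iff_bijective.1 σ.toRingHom.injective
  exact ⟨AlgEquiv.ofBijective σ hb, fun e v => hs e v⟩

/-- the dichotomy for two-dimensional spaces over an extension of odd degree -/
theorem phi_dichotomy (φ : E →ₐ[F] Module.End F V) (hs : ∀ e v w, polar Q (φ e v) w = polar Q v (φ e w))
    (hQ : (polarBilin Q).Nondegenerate) (hr : Odd (finrank F E)) (hd : finrank F V = finrank F E * 2) :
    (∃ L₁ L₂ : Submodule F V, TS Q L₁ ∧ TS Q L₂ ∧ finrank F L₁ = finrank F E ∧ finrank F L₂ = finrank F E ∧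
      L₁ ⊓ L₂ = ⊥ ∧ ∀ g : V ≃ₗ[F] V, (∀ v, Q (g v) = Q v) → (∀ e, ∃ e', ∀ v, g (φ e v) = φ e' (g v)) →
        (L₁.map (g : V →ₗ[F] V) = L₁ ∨ L₁.map (g : V →ₗ[F] V) = L₂) ∧
        (L₂.map (g : V →ₗ[F] V) = L₁ ∨ L₂.map (g : V →ₗ[F] V) = L₂)) ∨
    (∃ (θ : V →ₗ[F] V) (ζ : F), IsHerm Q θ 1 ζ ∧ ∀ g : V ≃ₗ[F] V, (∀ v, Q (g v) = Q v) →
      (∀ e, ∃ e', ∀ v, g (φ e v) = φ e' (g v)) →
        (∀ v, g (θ (g.symm v)) = θ v) ∨ (∀ v, g (θ (g.symm v)) = v - θ v)) := by
  have hE : 0 < finrank F E := Module.finrank_pos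
  have hV : 0 < finrank F V := by omega
  letI : Module E V := Module.compHom V (φ : E →+* Module.End F V)
  have hsmul : ∀ (k : E) (v : V), k • v = φ k v := fun k v => rfl
  haveI : IsScalarTower F E V := by
    refine ⟨fun c k v => ?_⟩
    rw [hsmul, hsmul, _root_.map_smul, LinearMap.smul_apply]
  haveI : Finite E := finite_ext F E
  have hs' : SA E Q := hs
  have h3 := Module.finrank_mul_finrank F E V
  rw [hd] at h3
  have h4 : finrank E V = 2 := Nat.eq_of_mul_eq_mul_left hE h3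
  by_cases hp : IsPlus (QE hs')
  · obtain ⟨L₁, L₂, h1, h2, d1, d2, hdis, i1, i2, hu⟩ := plus_pair hs' hQ h4 hp
    refine Or.inl ⟨L₁, L₂, h1, h2, d1, d2, hdis, fun g hg hgn => ?_⟩
    have key : ∀ L : Submodule F V, TS Q L → finrank F L = finrank F E → (∀ (e : E), ∀ v ∈ L, e • v ∈ L) →
        (L.map (g : V →ₗ[F] V) = L₁ ∨ L.map (g : V →ₗ[F] V) = L₂) := by
      intro L hL hLd hLi
      obtain ⟨σ, hσ⟩ := exists_sigma φ hV g hgn
      apply hu
      · rintro _ ⟨v, hv, rfl⟩
        change Q (g v) = 0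
        rw [hg]; exact hL v hv
      · have := LinearEquiv.finrank_map_eq g L
        rw [← hLd]; exact this
      · rintro e _ ⟨v, hv, rfl⟩
        refine ⟨(σ.symm e) • v, hLi _ v hv, ?_⟩
        change g (φ (σ.symm e) v) = φ e (g v)
        rw [hσ, AlgEquiv.apply_symm_apply]
    exact ⟨key L₁ h1 d1 i1, key L₂ h2 d2 i2⟩
  · obtain ⟨θ, ζ, hθ, -, hg⟩ := minus_theta hs' hQ hr h4 hp
    refine Or.inr ⟨θ, ζ, hθ, fun g hgq hgn => hg g hgq ?_⟩
    obtain ⟨σ, hσ⟩ := exists_sigma φ hV g hgn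
    exact ⟨σ, fun e v => hσ e v⟩

theorem even_of_ring {F E V : Type*} [Field F] [Finite F] [Ring E] [Algebra F E] [FiniteDimensional F E]
    [AddCommGroup V] [Module F V] [FiniteDimensional F V] {Q : QuadraticForm F V} (hE : IsField E)
    (φ : E →ₐ[F] Module.End F V) (hs : ∀ e v w, polar Q (φ e v) w = polar Q v (φ e w))
    (hQ : (polarBilin Q).Nondegenerate) (h2 : (2 : F) = 0) {k : ℕ} (hk : finrank F V = finrank F E * k) :
    Even k := by
  letI := hE.toField
  exact even_of_phi φ hs hQ h2 hk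

theorem ring_dichotomy {F E V : Type*} [Field F] [Finite F] [Ring E] [Algebra F E] [FiniteDimensional F E]
    [AddCommGroup V] [Module F V] [FiniteDimensional F V] {Q : QuadraticForm F V} (hE : IsField E)
    (φ : E →ₐ[F] Module.End F V) (hs : ∀ e v w, polar Q (φ e v) w = polar Q v (φ e w))
    (hQ : (polarBilin Q).Nondegenerate) (hr : Odd (finrank F E)) (hd : finrank F V = finrank F E * 2) :
    (∃ L₁ L₂ : Submodule F V, TS Q L₁ ∧ TS Q L₂ ∧ finrank F L₁ = finrank F E ∧ finrank F L₂ = finrank F E ∧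
      L₁ ⊓ L₂ = ⊥ ∧ ∀ g : V ≃ₗ[F] V, (∀ v, Q (g v) = Q v) → (∀ e, ∃ e', ∀ v, g (φ e v) = φ e' (g v)) →
        (L₁.map (g : V →ₗ[F] V) = L₁ ∨ L₁.map (g : V →ₗ[F] V) = L₂) ∧
        (L₂.map (g : V →ₗ[F] V) = L₁ ∨ L₂.map (g : V →ₗ[F] V) = L₂)) ∨
    (∃ (θ : V →ₗ[F] V) (ζ : F), IsHerm Q θ 1 ζ ∧ ∀ g : V ≃ₗ[F] V, (∀ v, Q (g v) = Q v) →
      (∀ e, ∃ e', ∀ v, g (φ e v) = φ e' (g v)) →
        (∀ v, g (θ (g.symm v)) = θ v) ∨ (∀ v, g (θ (g.symm v)) = v - θ v)) := by
  letI := hE.toField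
  exact phi_dichotomy φ hs hQ hr hd

end phi

section matrix

variable {ι : Type} [Fintype ι] [DecidableEq ι] {F : Type*} [Field F] [Fintype F] {Q : QuadraticForm F (ι → F)}

/-- the subalgebra generated by a similarity structure -/
theorem IsHerm.exists_subalgebra (hQ : (polarBilin Q).Nondegenerate) (hc : 0 < Fintype.card ι)
    {ω : (ι → F) →ₗ[F] (ι → F)} {s p : F} (h : IsHerm Q ω s p) :
    ∃ K : Subalgebra F (Matrix ι ι F), (∀ k, k ∈ K ↔ ∃ a b : F, k = a • 1 + b • LinearMap.toMatrix' ω) ∧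
      IsFieldSubalgebra 2 K ∧ IsAdjointClosedFor (polar ⇑Q) K ∧ ¬ IsSelfAdjointFor (polar ⇑Q) K ∧
      ∀ k ∈ K, ∃ c : F, ∀ v : ι → F, Q (k *ᵥ v) = c * Q v := by
  haveI : Nonempty ι := Fintype.card_pos_iff.1 hc
  set W : Matrix ι ι F := LinearMap.toMatrix' ω with hW
  have hWv : ∀ v, W *ᵥ v = ω v := fun v => by rw [hW, LinearMap.toMatrix'_mulVec]
  have hWW : W * W = s • W - p • 1 := by
    apply matrix_eq_of_mulVec
    intro v
    rw [← Matrix.mulVec_mulVec, hWv, hWv, h.sq hQ, Matrix.sub_mulVec, Matrix.smul_mulVec, Matrix.smul_mulVec, hWv,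
      Matrix.one_mulVec]
  have hmul : ∀ a b c d : F, (a • (1 : Matrix ι ι F) + b • W) * (c • 1 + d • W) =
      (a * c - p * b * d) • 1 + (a * d + b * c + s * b * d) • W := by
    intro a b c d
    simp only [Matrix.mul_add, Matrix.add_mul, Matrix.smul_mul, Matrix.mul_smul, Matrix.one_mul, Matrix.mul_one, hWW]
    module
  let K : Subalgebra F (Matrix ι ι F) :=
    { carrier := {k | ∃ a b : F, k = a • 1 + b • W}
      mul_mem' := by
        rintro _ _ ⟨a, b, rfl⟩ ⟨c, d, rfl⟩
        exact ⟨_, _, hmul a b c d⟩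
      add_mem' := by
        rintro _ _ ⟨a, b, rfl⟩ ⟨c, d, rfl⟩
        exact ⟨a + c, b + d, by module⟩
      algebraMap_mem' := fun r => ⟨r, 0, by rw [Algebra.algebraMap_eq_smul_one, zero_smul, add_zero]⟩ }
  have hmem : ∀ k, k ∈ K ↔ ∃ a b : F, k = a • 1 + b • W := fun k => Iff.rfl
  have hq : ∀ (a b : F) (v : ι → F), Q ((a • (1 : Matrix ι ι F) + b • W) *ᵥ v) = (a * a + s * a * b + p * b * b) * Q v := by
    intro a b v
    rw [Matrix.add_mulVec, Matrix.smul_mulVec, Matrix.smul_mulVec, hWv, Matrix.one_mulVec, h.q_pair]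
  obtain ⟨v₀, hv₀⟩ := exists_q_ne_zero hQ (by rw [finrank_fintype_fun_eq_card]; exact hc)
  have hzero : ∀ a b : F, a • (1 : Matrix ι ι F) + b • W = 0 → a = 0 ∧ b = 0 := by
    intro a b hab
    by_contra hcon
    have h1 := hq a b v₀
    rw [hab, Matrix.zero_mulVec, QuadraticMap.map_zero] at h1
    exact mul_ne_zero (h.norm_ne (by tauto)) hv₀ h1.symm
  refine ⟨K, hmem, ⟨?_, ?_, ?_⟩, ?_, ?_, ?_⟩
  · rintro _ ⟨a, b, rfl⟩ _ ⟨c, d, rfl⟩
    rw [hmul, hmul]
    congr 2 <;> ring
  · rintro _ ⟨a, b, rfl⟩ hk0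
    have hN : a * a + s * a * b + p * b * b ≠ 0 := by
      apply h.norm_ne
      by_contra hcon
      push Not at hcon
      rw [hcon.1, hcon.2] at hk0
      simp at hk0
    refine ⟨(a * a + s * a * b + p * b * b)⁻¹ • ((a + s * b) • 1 + (-b) • W), K.smul_mem ⟨_, _, rfl⟩ _, ?_⟩
    rw [Matrix.mul_smul, hmul]
    have e1 : a * (a + s * b) - p * b * -b = a * a + s * a * b + p * b * b := by ring
    have e2 : a * -b + b * (a + s * b) + s * b * -b = 0 := by ring
    rw [e1, e2, zero_smul, add_zero, smul_smul, inv_mul_cancel₀ hN, one_smul]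
  · have hli : LinearIndependent F ![(1 : Matrix ι ι F), W] := by
      rw [LinearIndependent.pair_iff]
      exact hzero
    have h3 : finrank F (Submodule.span F (Set.range ![(1 : Matrix ι ι F), W])) = 2 := by
      rw [finrank_span_eq_card hli, Fintype.card_fin]
    have h4 : Subalgebra.toSubmodule K = Submodule.span F (Set.range ![(1 : Matrix ι ι F), W]) := by
      have h5 : Set.range ![(1 : Matrix ι ι F), W] = {1, W} := by
        simp only [Matrix.range_cons, Matrix.range_empty, Set.union_empty, Set.singleton_union]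
      rw [h5]
      ext k
      rw [Submodule.mem_span_pair, Subalgebra.mem_toSubmodule, hmem]
      constructor
      · rintro ⟨a, b, rfl⟩; exact ⟨a, b, rfl⟩
      · rintro ⟨a, b, rfl⟩; exact ⟨a, b, rfl⟩
    rw [← h4] at h3
    exact h3
  · rintro _ ⟨a, b, rfl⟩
    refine ⟨(a + s * b) • 1 + (-b) • W, ⟨_, _, rfl⟩, fun u v => ?_⟩
    simp only [Matrix.add_mulVec, Matrix.smul_mulVec, hWv, Matrix.one_mulVec]
    rw [pal, par, psl, psl, psr, psr, h.adj, pdr, psr]
    ring
  · intro hsa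
    have h1 : ∀ u v, polar Q (ω u) v = polar Q u (ω v) := by
      intro u v
      have := hsa W ⟨0, 1, by simp⟩ u v
      rwa [hWv, hWv] at this
    have h2 : ∀ v, (2 : F) • ω v = s • v := by
      intro v
      rw [← sub_eq_zero]
      refine hQ.2 _ fun u => ?_
      have h3 := h1 u v
      rw [h.adj, pdr, psr] at h3
      rw [pbil, pdr, psr, psr]
      linear_combination -h3
    by_cases hF : (2 : F) = 0
    · have hs0 : s = 0 := by
        have := h2 v₀
        rw [hF, zero_smul] at this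
        rcases smul_eq_zero.1 this.symm with h5 | h5
        · exact h5
        · exfalso; apply hv₀; rw [h5, QuadraticMap.map_zero]
      obtain ⟨t, ht⟩ := exists_sqrt_of_two hF p
      apply h.root t
      rw [hs0, ht]
      linear_combination p * hF
    · apply h.root (s / 2)
      have h5 : ω v₀ = (s / 2) • v₀ := by
        apply smul_right_injective _ hF
        change (2 : F) • ω v₀ = (2 : F) • (s / 2) • v₀
        rw [h2, smul_smul, mul_div_cancel₀ _ hF]
      have h6 := h.q v₀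
      rw [h5, qsmul] at h6
      have h7 : s = 2 * (s / 2) := (mul_div_cancel₀ _ hF).symm
      apply mul_right_cancel₀ hv₀
      linear_combination -h6 - (s / 2) * Q v₀ * h7
  · rintro _ ⟨a, b, rfl⟩
    exact ⟨_, hq a b⟩

/-- how to use membership in the normaliser -/
theorem normalizer_apply {K : Subalgebra F (Matrix ι ι F)} {g : OGrp Q} (hg : toGL g ∈ subalgebraNormalizer K)
    {k : Matrix ι ι F} (hk : k ∈ K) :
    ∃ k' ∈ K, ∀ v, (g : (ι → F) ≃ₗ[F] (ι → F)) (k *ᵥ v) = k' *ᵥ (g : (ι → F) ≃ₗ[F] (ι → F)) v := by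
  refine ⟨_, (hg k).1 hk, fun v => ?_⟩
  rw [← toGL_mulVec g v, Matrix.mulVec_mulVec, Matrix.mul_assoc, ← Units.val_mul, inv_mul_cancel, Units.val_one,
    Matrix.mul_one, ← Matrix.mulVec_mulVec, toGL_mulVec]

/-- how to prove membership in the normaliser -/
theorem mem_normalizer_of {K : Subalgebra F (Matrix ι ι F)} {g : OGrp Q}
    (h : ∀ k ∈ K, ∃ k' ∈ K, ∀ v, (g : (ι → F) ≃ₗ[F] (ι → F)) (k *ᵥ v) = k' *ᵥ (g : (ι → F) ≃ₗ[F] (ι → F)) v) :
    toGL g ∈ subalgebraNormalizer K := by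
  set G : Matrix.GeneralLinearGroup ι F := toGL g with hG
  have h1 : ∀ k ∈ K, (G : Matrix ι ι F) * k * ((G⁻¹ : Matrix.GeneralLinearGroup ι F) : Matrix ι ι F) ∈ K := by
    intro k hk
    obtain ⟨k', hk', hv⟩ := h k hk
    have h2 : (G : Matrix ι ι F) * k = k' * (G : Matrix ι ι F) := by
      apply matrix_eq_of_mulVec
      intro v
      rw [← Matrix.mulVec_mulVec, ← Matrix.mulVec_mulVec, hG, toGL_mulVec, toGL_mulVec, hv]
    rw [h2, Matrix.mul_assoc, ← Units.val_mul, mul_inv_cancel, Units.val_one, Matrix.mul_one]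
    exact hk'
  -- the conjugation map is injective on the finite-dimensional space `K`, hence surjective
  let c : K →ₗ[F] K :=
    { toFun := fun k => ⟨_, h1 k k.2⟩
      map_add' := fun x y => Subtype.ext (by simp [Matrix.mul_add, Matrix.add_mul])
      map_smul' := fun r x => Subtype.ext (by simp) }
  have hinj : Function.Injective c := by
    intro x y hxy
    have h3 : (G : Matrix ι ι F) * (x : Matrix ι ι F) * ((G⁻¹ : Matrix.GeneralLinearGroup ι F) : Matrix ι ι F) =
      (G : Matrix ι ι F) * (y : Matrix ι ι F) * ((G⁻¹ : Matrix.GeneralLinearGroup ι F) : Matrix ι ι F) :=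
      congrArg Subtype.val hxy
    apply Subtype.ext
    have h4 : ∀ z : Matrix ι ι F, ((G⁻¹ : Matrix.GeneralLinearGroup ι F) : Matrix ι ι F) *
        ((G : Matrix ι ι F) * z * ((G⁻¹ : Matrix.GeneralLinearGroup ι F) : Matrix ι ι F)) * (G : Matrix ι ι F) = z := by
      intro z
      have e1 : ((G⁻¹ : Matrix.GeneralLinearGroup ι F) : Matrix ι ι F) * (G : Matrix ι ι F) = 1 := by
        rw [← Units.val_mul, inv_mul_cancel, Units.val_one]
      calc _ = (((G⁻¹ : Matrix.GeneralLinearGroup ι F) : Matrix ι ι F) * (G : Matrix ι ι F)) * z *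
            (((G⁻¹ : Matrix.GeneralLinearGroup ι F) : Matrix ι ι F) * (G : Matrix ι ι F)) := by
            simp only [Matrix.mul_assoc]
        _ = z := by rw [e1, Matrix.one_mul, Matrix.mul_one]
    rw [← h4 x, h3, h4]
  have hsurj := LinearMap.injective_iff_surjective.1 hinj
  intro k
  refine ⟨h1 k, fun hk => ?_⟩
  obtain ⟨x, hx⟩ := hsurj ⟨_, hk⟩
  have h3 : (G : Matrix ι ι F) * (x : Matrix ι ι F) * ((G⁻¹ : Matrix.GeneralLinearGroup ι F) : Matrix ι ι F) =
      (G : Matrix ι ι F) * k * ((G⁻¹ : Matrix.GeneralLinearGroup ι F) : Matrix ι ι F) :=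
    congrArg Subtype.val hx
  have h4 : (x : Matrix ι ι F) = k := by
    have e1 : ((G⁻¹ : Matrix.GeneralLinearGroup ι F) : Matrix ι ι F) * (G : Matrix ι ι F) = 1 := by
      rw [← Units.val_mul, inv_mul_cancel, Units.val_one]
    have h5 := congrArg (fun z => ((G⁻¹ : Matrix.GeneralLinearGroup ι F) : Matrix ι ι F) * z * (G : Matrix ι ι F)) h3
    simp only [Matrix.mul_assoc, e1, Matrix.mul_one] at h5
    simpa only [← Matrix.mul_assoc, e1, Matrix.one_mul] using h5
  rw [← h4]
  exact x.2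

theorem isField_of {r : ℕ} (hc : 0 < Fintype.card ι) {K : Subalgebra F (Matrix ι ι F)} (hK : IsFieldSubalgebra r K) :
    IsField K where
  exists_pair_ne := ⟨0, 1, fun h => by
    haveI : Nonempty ι := Fintype.card_pos_iff.1 hc
    have h1 := congrArg Subtype.val h
    exact zero_ne_one h1⟩
  mul_comm := fun x y => Subtype.ext (hK.comm x x.2 y y.2)
  mul_inv_cancel := fun {x} hx => by
    obtain ⟨y, hy, hxy⟩ := hK.inv x x.2 (fun h => hx (Subtype.ext h))
    exact ⟨⟨y, hy⟩, Subtype.ext hxy⟩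

/-- the action of a subalgebra of the matrix algebra -/
noncomputable def algMap (K : Subalgebra F (Matrix ι ι F)) : K →ₐ[F] Module.End F (ι → F) :=
  (Matrix.toLinAlgEquiv' : Matrix ι ι F ≃ₐ[F] _).toAlgHom.comp K.val

theorem algMap_apply (K : Subalgebra F (Matrix ι ι F)) (k : K) (v : ι → F) :
    algMap K k v = (k : Matrix ι ι F) *ᵥ v := rfl

theorem algMap_sa {K : Subalgebra F (Matrix ι ι F)} (hsa : IsSelfAdjointFor (polar ⇑Q) K) (k : K) (v w : ι → F) :
    polar Q (algMap K k v) w = polar Q v (algMap K k w) := hsa k k.2 v w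

/-- **even characteristic**: the dimension over a self-adjoint field subalgebra is even -/
theorem even_of_selfAdjoint (hQ : (polarBilin Q).Nondegenerate) (hc : 0 < Fintype.card ι) (h2 : (2 : F) = 0) {r k : ℕ}
    {K : Subalgebra F (Matrix ι ι F)} (hK : IsFieldSubalgebra r K) (hsa : IsSelfAdjointFor (polar ⇑Q) K)
    (hk : Fintype.card ι = r * k) : Even k := by
  exact even_of_ring (isField_of hc hK) (algMap K) (algMap_sa hsa) hQ h2
    (by rw [finrank_fintype_fun_eq_card, hk, hK.finrank_eq])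

/-- **odd degree, dimension two**: the normaliser preserves a pair of totally singular subspaces or a similarity
structure -/
theorem dichotomy_selfAdjoint (hQ : (polarBilin Q).Nondegenerate) (hc : 0 < Fintype.card ι) {r : ℕ} (hr : Odd r)
    {K : Subalgebra F (Matrix ι ι F)} (hK : IsFieldSubalgebra r K) (hsa : IsSelfAdjointFor (polar ⇑Q) K)
    (hk : Fintype.card ι = r * 2) :
    (∃ D : Fin 2 → Submodule F (ι → F), IsMDecomposition r D ∧ (∀ i, TS Q (D i)) ∧
      subalgebraNormalizer K ⊓ omegaGL ⇑Q ≤ decompositionStabilizer D) ∨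
    (∃ K' : Subalgebra F (Matrix ι ι F), IsFieldSubalgebra 2 K' ∧ IsAdjointClosedFor (polar ⇑Q) K' ∧
      ¬ IsSelfAdjointFor (polar ⇑Q) K' ∧ (∀ k ∈ K', ∃ c : F, ∀ v : ι → F, Q (k *ᵥ v) = c * Q v) ∧
      subalgebraNormalizer K ⊓ omegaGL ⇑Q ≤ subalgebraNormalizer K') := by
  haveI : Nonempty ι := Fintype.card_pos_iff.1 hc
  have hfr : Module.finrank F K = r := hK.finrank_eq
  have hd := ring_dichotomy (isField_of hc hK) (algMap K) (algMap_sa hsa) hQ
    (by rw [hfr]; exact hr) (by rw [finrank_fintype_fun_eq_card, hk, hfr])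
  have hnorm : ∀ g : OGrp Q, toGL g ∈ subalgebraNormalizer K → ∀ e : K, ∃ e' : K, ∀ v,
      (g : (ι → F) ≃ₗ[F] (ι → F)) (algMap K e v) = algMap K e' ((g : (ι → F) ≃ₗ[F] (ι → F)) v) := by
    intro g hg e
    obtain ⟨k', hk', h⟩ := normalizer_apply hg e.2
    exact ⟨⟨k', hk'⟩, h⟩
  rcases hd with ⟨L₁, L₂, t1, t2, d1, d2, hdis, hg⟩ | ⟨θ, ζ, hθ, hg⟩
  · rw [hfr] at d1 d2
    have hD : IsMDecomposition r ![L₁, L₂] := by
      have hind : iSupIndep ![L₁, L₂] := by
        rw [iSupIndep_pair (i := (0 : Fin 2)) (j := 1) (by decide) (by intro k; fin_cases k <;> simp)]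
        exact disjoint_iff.2 hdis
      refine ⟨le_rfl, hr.pos, ?_, hind, ?_⟩
      · intro i
        fin_cases i
        · exact d1
        · exact d2
      · have h1 : L₁ ⊔ L₂ = ⊤ := by
          apply Submodule.eq_top_of_finrank_eq
          have := Submodule.finrank_sup_add_finrank_inf_eq L₁ L₂
          rw [hdis, finrank_bot] at this
          rw [finrank_fintype_fun_eq_card, hk]
          omega
        rw [eq_top_iff, ← h1]
        exact sup_le (le_iSup ![L₁, L₂] 0) (le_iSup ![L₁, L₂] 1)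
    refine Or.inl ⟨![L₁, L₂], hD, ?_, ?_⟩
    · intro i
      fin_cases i
      · exact t1
      · exact t2
    · refine (inf_omegaGL_le_iff Q _ _).2 fun g _ hM => ?_
      obtain ⟨g1, g2⟩ := hg (g : (ι → F) ≃ₗ[F] (ι → F)) (fun v => OGrp_q g v) (hnorm g hM)
      refine mem_decomp_of_forall hD fun i => ?_
      fin_cases i
      · rcases g1 with g1 | g1
        · exact ⟨0, g1.le⟩
        · exact ⟨1, g1.le⟩
      · rcases g2 with g2 | g2
        · exact ⟨0, g2.le⟩
        · exact ⟨1, g2.le⟩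
  · obtain ⟨K', hmem, hK', hac, hnsa, hsim⟩ := hθ.exists_subalgebra hQ hc
    refine Or.inr ⟨K', hK', hac, hnsa, hsim, ?_⟩
    refine (inf_omegaGL_le_iff Q _ _).2 fun g _ hM => ?_
    have hgθ := hg (g : (ι → F) ≃ₗ[F] (ι → F)) (fun v => OGrp_q g v) (hnorm g hM)
    apply mem_normalizer_of
    intro k hk
    obtain ⟨a, b, rfl⟩ := (hmem k).1 hk
    have happ : ∀ v, (g : (ι → F) ≃ₗ[F] (ι → F)) ((a • (1 : Matrix ι ι F) + b • LinearMap.toMatrix' θ) *ᵥ v) =
        a • (g : (ι → F) ≃ₗ[F] (ι → F)) v + b • (g : (ι → F) ≃ₗ[F] (ι → F)) (θ v) := by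
      intro v
      rw [Matrix.add_mulVec, Matrix.smul_mulVec, Matrix.smul_mulVec, Matrix.one_mulVec, LinearMap.toMatrix'_mulVec,
        _root_.map_add, _root_.map_smul, _root_.map_smul]
    rcases hgθ with h | h
    · refine ⟨_, (hmem _).2 ⟨a, b, rfl⟩, fun v => ?_⟩
      have h1 := h ((g : (ι → F) ≃ₗ[F] (ι → F)) v)
      rw [LinearEquiv.symm_apply_apply] at h1
      rw [happ, h1, Matrix.add_mulVec, Matrix.smul_mulVec, Matrix.smul_mulVec, Matrix.one_mulVec,
        LinearMap.toMatrix'_mulVec]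
    · refine ⟨_, (hmem _).2 ⟨a + b, -b, rfl⟩, fun v => ?_⟩
      have h1 := h ((g : (ι → F) ≃ₗ[F] (ι → F)) v)
      rw [LinearEquiv.symm_apply_apply] at h1
      rw [happ, h1, Matrix.add_mulVec, Matrix.smul_mulVec, Matrix.smul_mulVec, Matrix.one_mulVec,
        LinearMap.toMatrix'_mulVec]
      module

end matrix

end Cfsg.Agent.OCase
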