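import Cfsg.Agent.OCase.SixConj
import Cfsg.Agent.OCase.Sum

/-!
Class 6: extraspecial groups of plus type live in orthogonal groups of plus type.
-/

set_option autoImplicit false
set_option linter.unusedSectionVars false

namespace Cfsg.Agent.OCase

open QuadraticMap Module Cfsg.Geo Cfsg.Agent.Orth

section swap

variable {V F : Type*} [Field F] [Finite F] [AddCommGroup V] [Module F V] [FiniteDimensional F V]

/-- an involution with multiplier and a similarity anticommuting with it -/
theorem isPlus_of_swap {Q : QuadraticForm F V} (hQ : (polarBilin Q).Nondegenerate) (h2 : (2 : F) ≠ 0)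
    (a r : V →ₗ[F] V) (haa : ∀ v, a (a v) = v) (har : ∀ v, a (r v) = -r (a v)) {l μ : F}
    (hl : ∀ v, Q (a v) = l * Q v) (hμ : μ ≠ 0) (hr : ∀ v, Q (r v) = μ * Q v) {m : ℕ} (hm : 0 < m)
    (hd : finrank F V = 4 * m) : IsPlus Q := by
  have hpr : ∀ v w, polar Q (r v) (r w) = μ * polar Q v w := by
    intro v w
    rw [polar, polar, ← map_add, hr, hr, hr]; ring
  have hpa : ∀ v w, polar Q (a v) (a w) = l * polar Q v w := by
    intro v w
    rw [polar, polar, ← map_add, hl, hl, hl]; ring
  have hrinj : Function.Injective r := by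
    rw [← LinearMap.ker_eq_bot, eq_bot_iff]
    intro v hv
    rw [LinearMap.mem_ker] at hv
    refine (Submodule.mem_bot F).2 (hQ.1 v fun w => ?_)
    have h := hpr v w
    rw [hv] at h
    have h0 : polar Q (0 : V) (r w) = 0 := by
      rw [polar, zero_add, QuadraticMap.map_zero]; ring
    rw [h0] at h
    exact (mul_eq_zero.1 h.symm).resolve_left hμ
  -- eigenspaces
  let P : Submodule F V := LinearMap.ker (a - LinearMap.id)
  let N : Submodule F V := LinearMap.ker (a + LinearMap.id)
  have hP : ∀ v, v ∈ P ↔ a v = v := fun v => by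
    change v ∈ LinearMap.ker (a - LinearMap.id) ↔ _
    rw [LinearMap.mem_ker, LinearMap.sub_apply, LinearMap.id_apply, sub_eq_zero]
  have hN : ∀ v, v ∈ N ↔ a v = -v := fun v => by
    change v ∈ LinearMap.ker (a + LinearMap.id) ↔ _
    rw [LinearMap.mem_ker, LinearMap.add_apply, LinearMap.id_apply, add_eq_zero_iff_eq_neg]
  have hrP : ∀ v ∈ P, r v ∈ N := fun v hv => by
    rw [hN, har, (hP v).1 hv]
  have hrN : ∀ v ∈ N, r v ∈ P := fun v hv => by
    rw [hP, har, (hN v).1 hv, map_neg, neg_neg]
  have hle1 : finrank F P ≤ finrank F N :=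
    LinearMap.finrank_le_finrank_of_injective (f := r.restrict hrP) (fun x y h => Subtype.ext (hrinj (congrArg Subtype.val h)))
  have hle2 : finrank F N ≤ finrank F P :=
    LinearMap.finrank_le_finrank_of_injective (f := r.restrict hrN) (fun x y h => Subtype.ext (hrinj (congrArg Subtype.val h)))
  have hinf : P ⊓ N = ⊥ := by
    rw [eq_bot_iff]
    rintro v ⟨h3, h4⟩
    have h5 : v = -v := ((hP v).1 h3).symm.trans ((hN v).1 h4)
    have h6 : (2 : F) • v = 0 := by rw [two_smul]; nth_rewrite 2 [h5]; exact add_neg_cancel v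
    exact (Submodule.mem_bot F).2 ((smul_eq_zero.1 h6).resolve_left h2)
  have hsup : P ⊔ N = ⊤ := by
    rw [eq_top_iff]
    intro v _
    have h3 : v = (2 : F)⁻¹ • (v + a v) + (2 : F)⁻¹ • (v - a v) := by
      rw [← smul_add]
      have : v + a v + (v - a v) = (2 : F) • v := by rw [two_smul]; abel
      rw [this, smul_smul, inv_mul_cancel₀ h2, one_smul]
    rw [h3]
    refine Submodule.add_mem_sup (P.smul_mem _ ((hP _).2 ?_)) (N.smul_mem _ ((hN _).2 ?_))
    · rw [map_add, haa]; abel
    · rw [map_sub, haa]; abel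
  have hdim := Submodule.finrank_sup_add_finrank_inf_eq P N
  rw [hinf, hsup, finrank_bot, finrank_top, hd] at hdim
  have hPd : finrank F P = 2 * m := by omega
  have hNd : finrank F N = 2 * m := by omega
  -- the multiplier of the involution
  have hll : l * l = 1 := by
    have hne : ∃ v w, polar Q v w ≠ 0 := by
      by_contra hcon
      push Not at hcon
      haveI : Nontrivial V := Module.nontrivial_of_finrank_pos (R := F) (by omega)
      obtain ⟨v, hv⟩ := exists_ne (0 : V)
      exact hv (hQ.1 v fun w => hcon v w)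
    obtain ⟨v, w, hvw⟩ := hne
    have h3 : polar Q v w = l * l * polar Q v w := by
      conv_lhs => rw [← haa v, ← haa w, hpa, hpa]
      ring
    have h4 : (l * l - 1) * polar Q v w = 0 := by rw [sub_mul, ← h3]; ring
    exact sub_eq_zero.1 ((mul_eq_zero.1 h4).resolve_right hvw)
  rcases mul_self_eq_one_iff.1 hll with h1 | h1
  · -- multiplier one
    have hort : ∀ v ∈ P, ∀ w ∈ N, polar Q v w = 0 := by
      intro v hv w hw
      have h3 := hpa v w
      rw [(hP v).1 hv, (hN w).1 hw, h1, one_mul, ← neg_one_smul F w, psr] at h3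
      have h4 : (2 : F) * polar Q v w = 0 := by linear_combination -h3
      exact (mul_eq_zero.1 h4).resolve_left h2
    have hPn : P ⊓ perp Q P = ⊥ := by
      rw [eq_bot_iff]
      rintro v ⟨hv, hv'⟩
      refine (Submodule.mem_bot F).2 (hQ.1 v fun w => ?_)
      have hw : w ∈ P ⊔ N := by rw [hsup]; trivial
      obtain ⟨x, hx, y, hy, rfl⟩ := Submodule.mem_sup.1 hw
      rw [polarBilin_apply_apply, par, hort v hv y hy, add_zero, pc]
      exact hv' x hx
    have hperp : perp Q P = N := by
      symm
      refine Submodule.eq_of_le_of_finrank_eq (fun w hw v hv => hort v hv w hw) ?_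
      have := finrank_perp hQ P
      omega
    rw [isPlus_iff_of_split hQ hPn (by rw [hPd]; exact even_two_mul _) (by rw [hd]; exact ⟨2 * m, by ring⟩), hperp]
    have hbij : Function.Bijective (r.restrict hrP) := by
      have hi : Function.Injective (r.restrict hrP) := fun x y h => Subtype.ext (hrinj (congrArg Subtype.val h))
      exact ⟨hi, (LinearMap.injective_iff_surjective_of_finrank_eq_finrank (hPd.trans hNd.symm)).1 hi⟩
    have h5 : IsPlus (μ • Q.restrict P) ↔ IsPlus (Q.restrict N) := by
      refine isPlus_congr (LinearEquiv.ofBijective _ hbij) fun v => ?_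
      change Q (r v) = μ • Q v
      rw [hr, smul_eq_mul]
    rw [← h5, isPlus_smul_iff hμ]
  · -- multiplier minus one
    refine ⟨P, fun v hv => ?_, by rw [hPd, hd]; ring⟩
    have h3 := hl v
    rw [(hP v).1 hv, h1] at h3
    have h4 : (2 : F) * Q v = 0 := by linear_combination h3
    exact (mul_eq_zero.1 h4).resolve_left h2

end swap

open scoped Matrix MatrixGroups

variable {ι : Type} [Fintype ι] [DecidableEq ι] {F : Type*} [Field F] [Finite F]

/-- **class 6**: the form is of plus type -/
theorem isPlus_of_extraspecial {Q : QuadraticForm F (ι → F)} (hQ : (polarBilin Q).Nondegenerate) (h2 : (2 : F) ≠ 0)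
    {R : Subgroup (GL ι F)} (habs : ActsAbsolutelyIrreducibly (matrixSet R)) (hsim : R ≤ quadSimilarityGroup ⇑Q)
    {k : ℕ} (hk : 2 ≤ k) (hR : Nat.card R = 2 ^ (1 + 2 * k)) (hZ : Nat.card (Subgroup.center R) = 2)
    (hι : Fintype.card ι = 2 ^ k) (hplus : IsOfPlusType k R) : IsPlus Q := by
  haveI : Finite R := Nat.finite_of_card_ne_zero (by rw [hR]; positivity)
  obtain ⟨A, -, hA2, hAc⟩ := hplus
  obtain ⟨a, ha, hac⟩ : ∃ a ∈ A, a ∉ Subgroup.center R := by
    by_contra hcon
    push Not at hcon
    have h3 : A ≤ Subgroup.center R := hcon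
    have h4 := Subgroup.card_le_of_le h3
    rw [hAc, hZ, pow_succ] at h4
    have h5 : 4 ≤ 2 ^ k := by
      calc 4 = 2 ^ 2 := by norm_num
        _ ≤ 2 ^ k := Nat.pow_le_pow_right (by norm_num) hk
    omega
  obtain ⟨r, hr⟩ := exists_neg_conj h2 habs hR hZ hι hac
  obtain ⟨l, hl⟩ := hsim a.2
  obtain ⟨μ, hμ⟩ := hsim r.2
  have haa : mt a * mt a = 1 := by rw [← mt_mul, hA2 a ha]; rfl
  have har : mt a * mt r = -(mt r * mt a) := by
    have h3 : mt (r * a * r⁻¹) * mt r = mt r * mt a := by
      rw [← mt_mul, ← mt_mul, inv_mul_cancel_right]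
    rw [hr] at h3
    rw [← h3, neg_mul, neg_neg]
  refine isPlus_of_swap hQ h2 (Matrix.toLin' (mt a)) (Matrix.toLin' (mt r)) ?_ ?_ (l := l) (μ := μ) ?_ μ.ne_zero ?_
    (m := 2 ^ (k - 2)) (by positivity) ?_
  · intro v
    rw [Matrix.toLin'_apply, Matrix.toLin'_apply, Matrix.mulVec_mulVec, haa, Matrix.one_mulVec]
  · intro v
    rw [Matrix.toLin'_apply, Matrix.toLin'_apply, Matrix.mulVec_mulVec, har, Matrix.toLin'_apply, Matrix.toLin'_apply,
      Matrix.mulVec_mulVec, Matrix.neg_mulVec]
  · intro v
    rw [Matrix.toLin'_apply]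
    exact hl v
  · intro v
    rw [Matrix.toLin'_apply]
    exact hμ v
  · rw [Module.finrank_fintype_fun_eq_card, hι]
    have : k = 2 + (k - 2) := by omega
    conv_lhs => rw [this]
    rw [pow_add]
    norm_num

end Cfsg.Agent.OCase
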