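import Cfsg.Agent.OCase.ExtClass

/-!
Forms defined over a subfield of index two have plus type.
-/

set_option autoImplicit false
set_option linter.unusedSectionVars false
set_option linter.unusedSimpArgs false

namespace Cfsg.Agent.OCase

open QuadraticMap Module Cfsg.Agent.Orth Cfsg.Geo
open scoped Matrix

/-! ### roots in the quadratic extension -/

section roots

variable {F : Type*} [Field F] [Fintype F] {F₀ : Subfield F}

theorem mem_of_pow_card (x : F) (hx : x ^ Nat.card F₀ = x) : x ∈ F₀ := AschCases.mem_subfield_of_pow_card F₀ x hx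

theorem pow_card_of_mem {x : F} (hx : x ∈ F₀) : x ^ Nat.card F₀ = x := by
  haveI := Fintype.ofFinite F₀
  have h1 := FiniteField.pow_card (⟨x, hx⟩ : F₀)
  have h2 := congrArg Subtype.val h1
  rw [Nat.card_eq_fintype_card]
  simpa using h2

/-- elements of the subfield of index two are squares -/
theorem isSquare_of_mem_subfield (h2 : (2 : F) ≠ 0) (hF : Fintype.card F = Nat.card F₀ ^ 2) {x : F} (hx : x ∈ F₀) :
    IsSquare x := by
  by_cases hx0 : x = 0
  · rw [hx0]; exact ⟨0, by ring⟩
  have hchar : ringChar F ≠ 2 := by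
    intro h
    apply h2
    have := CharP.cast_eq_zero F (ringChar F)
    rw [h] at this
    exact_mod_cast this
  rw [FiniteField.isSquare_iff hchar hx0]
  have hodd : Odd (Fintype.card F) := Nat.odd_iff.2 (FiniteField.odd_card_of_char_ne_two hchar)
  have hodd0 : Odd (Nat.card F₀) := by
    rw [hF] at hodd
    exact (Nat.odd_pow_iff (by norm_num)).1 hodd
  obtain ⟨k, hk⟩ := hodd0
  have h1 : Fintype.card F / 2 = (Nat.card F₀ - 1) * (k + 1) := by
    rw [hF, hk]
    have : (2 * k + 1) ^ 2 = 2 * (2 * k * (k + 1)) + 1 := by ring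
    rw [this]
    have e : 2 * k + 1 - 1 = 2 * k := by omega
    rw [e]
    omega
  have h3 : x ^ (Nat.card F₀ - 1) = 1 := by
    have h4 := pow_card_of_mem hx
    have h5 : x ^ (Nat.card F₀ - 1) * x = 1 * x := by
      rw [← pow_succ, one_mul]
      have : Nat.card F₀ - 1 + 1 = Nat.card F₀ := by omega
      rw [this, h4]
    exact mul_right_cancel₀ hx0 h5
  rw [h1, pow_mul, h3, one_pow]

theorem sum_telescope {F : Type*} [Field F] (h2 : (2 : F) = 0) (x : F) (e : ℕ) :
    (∑ i ∈ Finset.range e, x ^ 2 ^ i) ^ 2 + ∑ i ∈ Finset.range e, x ^ 2 ^ i = x ^ 2 ^ e + x := by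
  induction e with
  | zero => simp; linear_combination -x * h2
  | succ e ih =>
    rw [Finset.sum_range_succ]
    have h3 : x ^ 2 ^ (e + 1) = (x ^ 2 ^ e) ^ 2 := by rw [← pow_mul, pow_succ]
    rw [h3]
    linear_combination ih + (x ^ 2 ^ e * (∑ i ∈ Finset.range e, x ^ 2 ^ i)) * h2 + x ^ 2 ^ e * h2

theorem exists_root_of_mem (hF : Fintype.card F = Nat.card F₀ ^ 2) {a : F} (ha : a ∈ F₀) :
    ∃ t : F, t ^ 2 + t + a = 0 := by
  by_cases h2 : (2 : F) = 0
  · -- the trace is surjective
    haveI : CharP F 2 := CharTwo.of_one_ne_zero_of_two_eq_zero one_ne_zero h2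
    haveI : Fact (Nat.Prime 2) := ⟨Nat.prime_two⟩
    haveI := Fintype.ofFinite F₀
    haveI : CharP F₀ 2 := RingHom.charP F₀.subtype F₀.subtype_injective 2
    obtain ⟨e, -, he⟩ := FiniteField.card F₀ 2
    rw [← Nat.card_eq_fintype_card] at he
    set N := Nat.card F₀ with hN
    have hadd : ∀ x y : F, (x + y) ^ N = x ^ N + y ^ N := by
      intro x y
      rw [he]
      exact add_pow_char_pow x y 2 e
    have hpow : ∀ x : F, (x ^ N) ^ N = x := by
      intro x
      rw [← pow_mul, ← pow_two, ← hF, FiniteField.pow_card]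
    let φ : F →+ F :=
      { toFun := fun x => x ^ N + x
        map_zero' := by
          have : N ≠ 0 := by rw [he]; exact pow_ne_zero _ two_ne_zero
          simp [this]
        map_add' := fun x y => by rw [hadd]; ring }
    have hker : (φ.ker : Set F) ⊆ (F₀ : Set F) := by
      intro x hx
      apply mem_of_pow_card
      have h1 : x ^ N + x = 0 := hx
      linear_combination h1 - x * h2
    have hrange : (φ.range : Set F) ⊆ (F₀ : Set F) := by
      rintro _ ⟨x, rfl⟩
      apply mem_of_pow_card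
      change (x ^ N + x) ^ N = x ^ N + x
      rw [hadd, hpow]; ring
    have h1 : Nat.card φ.ker ≤ N := Nat.card_mono (Set.toFinite _) hker
    have h3 : Nat.card φ.range ≤ N := Nat.card_mono (Set.toFinite _) hrange
    have h4 : Nat.card F = Nat.card φ.range * Nat.card φ.ker := by
      have := AddSubgroup.card_eq_card_quotient_mul_card_addSubgroup φ.ker
      rw [this, Nat.card_congr (QuotientAddGroup.quotientKerEquivRange φ).toEquiv]
    have hNpos : 0 < N := by rw [he]; positivity
    have h5 : Nat.card φ.range = N := by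
      rw [Nat.card_eq_fintype_card, hF] at h4
      nlinarith
    have h6 : (φ.range : Set F) = (F₀ : Set F) :=
      Set.eq_of_subset_of_ncard_le hrange (by
        change Nat.card F₀ ≤ Nat.card φ.range
        rw [h5]) (Set.toFinite _)
    have h7 : a ∈ (φ.range : Set F) := by rw [h6]; exact ha
    obtain ⟨θ, hθ⟩ := h7
    have hθ' : θ ^ N + θ = a := hθ
    refine ⟨∑ i ∈ Finset.range e, θ ^ 2 ^ i, ?_⟩
    rw [sum_telescope h2, ← he, hθ']
    linear_combination a * h2
  · obtain ⟨d, hd⟩ := isSquare_of_mem_subfield (x := 1 - 4 * a) h2 hF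
      (F₀.sub_mem F₀.one_mem (F₀.mul_mem (by
        have : (4 : F) = ((4 : ℕ) : F) := by norm_num
        rw [this]; exact natCast_mem F₀ 4) ha))
    refine ⟨(d - 1) / 2, ?_⟩
    field_simp
    linear_combination -hd

end roots

/-! ### plus type from a family -/

theorem isPlus_of_family {F V κ : Type*} [Field F] [AddCommGroup V] [Module F V] [FiniteDimensional F V] [Fintype κ]
    [DecidableEq κ] {Q : QuadraticForm F V} {w w' : κ → V} {c : κ → F} (hc : ∀ k, c k ≠ 0) (hq : ∀ k, Q (w k) = 0)
    (hp : ∀ k l, polar Q (w k) (w l) = 0) (hd : ∀ k l, polar Q (w k) (w' l) = if k = l then c l else 0)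
    (hcard : 2 * Fintype.card κ = finrank F V) : IsPlus Q := by
  have hpair : ∀ (a : κ → F) (l : κ), polar Q (∑ k, a k • w k) (w' l) = a l * c l := by
    intro a l
    rw [psuml, Finset.sum_eq_single l]
    · rw [psl, hd, if_pos rfl]
    · intro k _ hk
      rw [psl, hd, if_neg hk, mul_zero]
    · intro hl; exact absurd (Finset.mem_univ l) hl
  have hli : LinearIndependent F w := by
    rw [Fintype.linearIndependent_iff]
    intro a ha l
    have := hpair a l
    rw [ha, polar_zero_left] at this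
    exact (mul_eq_zero.1 this.symm).resolve_right (hc l)
  refine ⟨Submodule.span F (Set.range w), ?_, by rw [finrank_span_eq_card hli, hcard]⟩
  intro x hx
  obtain ⟨a, rfl⟩ := (Submodule.mem_span_range_iff_exists_fun F).1 hx
  rw [q_sum_of_ortho]
  · refine Finset.sum_eq_zero fun k _ => ?_
    rw [qsmul, hq, mul_zero]
  · intro i _ j _ _
    rw [psl, psr, hp, mul_zero, mul_zero]

/-! ### forms over the subfield -/

section sub

variable {ι : Type} [Fintype ι] [DecidableEq ι] {F : Type*} [Field F] [Fintype F] {Q : QuadraticForm F (ι → F)}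

theorem isPlus_of_rational (hQ : (polarBilin Q).Nondegenerate) {F₀ : Subfield F} {P : Matrix.GeneralLinearGroup ι F}
    {ζ : F} (hF : Fintype.card F = Nat.card F₀ ^ 2) (hζ : ζ ≠ 0)
    (hrat : IsQuadFormRationalStructure (fun v : ι → F => ζ * Q v) F₀ P) {m : ℕ} (hm : Fintype.card ι = 2 * m)
    (hm0 : 0 < m) : IsPlus Q := by
  obtain ⟨em, hem⟩ : ∃ em : (ι → F₀) → (ι → F), ∀ u, em u = fun i => (u i : F) := ⟨fun u i => (u i : F), fun _ => rfl⟩
  have em_add : ∀ u v, em (u + v) = em u + em v := fun u v => by rw [hem, hem, hem]; rfl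
  have em_smul : ∀ (a : F₀) u, em (a • u) = (a : F) • em u := fun a u => by rw [hem, hem]; rfl
  obtain ⟨L, hL⟩ : ∃ L : (ι → F₀) → (ι → F), ∀ u, L u = (P : Matrix ι ι F) *ᵥ em u := ⟨_, fun _ => rfl⟩
  have L_add : ∀ u v, L (u + v) = L u + L v := fun u v => by rw [hL, hL, hL, em_add, Matrix.mulVec_add]
  have L_smul : ∀ (a : F₀) u, L (a • u) = (a : F) • L u := fun a u => by rw [hL, hL, em_smul, Matrix.mulVec_smul]
  have hmem : ∀ u, ζ * Q (L u) ∈ F₀ := fun u => by
    rw [hL, hem]; exact hrat _ fun i => (u i).2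
  obtain ⟨f, hf⟩ : ∃ f : (ι → F₀) → F₀, ∀ u, (f u : F) = ζ * Q (L u) := ⟨fun u => ⟨_, hmem u⟩, fun _ => rfl⟩
  have hfp : ∀ u v, ((polar f u v : F₀) : F) = ζ * polar Q (L u) (L v) := by
    intro u v
    rw [polar, polar]
    push_cast
    rw [hf, hf, hf, L_add]; ring
  let q : QuadraticForm F₀ (ι → F₀) := QuadraticMap.ofPolar f
    (fun a u => Subtype.ext (by
      rw [hf, L_smul, qsmul]
      simp only [smul_eq_mul]
      push_cast
      rw [hf]; ring))
    (fun u u' v => Subtype.ext (by
      push_cast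
      rw [hfp, hfp, hfp, L_add, pal]; ring))
    (fun a u v => Subtype.ext (by
      simp only [smul_eq_mul]
      push_cast
      rw [hfp, hfp, L_smul, psl]; ring))
  have hq : ∀ u, ((q u : F₀) : F) = ζ * Q (L u) := hf
  have hqp : ∀ u v, ((polar q u v : F₀) : F) = ζ * polar Q (L u) (L v) := hfp
  have hPinj : ∀ x, (P : Matrix ι ι F) *ᵥ x = 0 → x = 0 := by
    intro x hx
    have h1 := congrArg (fun y => ((P⁻¹ : Matrix.GeneralLinearGroup ι F) : Matrix ι ι F) *ᵥ y) hx
    simp only [Matrix.mulVec_mulVec, Matrix.mulVec_zero] at h1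
    rwa [← Units.val_mul, inv_mul_cancel, Units.val_one, Matrix.one_mulVec] at h1
  -- the vectors `L u` span
  have hspan : ∀ x : ι → F, (∀ u, polar Q x (L u) = 0) → x = 0 := by
    intro x hx
    refine hQ.1 x fun y => ?_
    obtain ⟨z, rfl⟩ : ∃ z, y = (P : Matrix ι ι F) *ᵥ z := ⟨((P⁻¹ : Matrix.GeneralLinearGroup ι F) : Matrix ι ι F) *ᵥ y, by
      rw [Matrix.mulVec_mulVec, ← Units.val_mul, mul_inv_cancel, Units.val_one, Matrix.one_mulVec]⟩
    have hz : z = ∑ i, z i • em (Pi.single i 1) := by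
      funext j
      rw [Finset.sum_apply, Finset.sum_eq_single j]
      · rw [Pi.smul_apply, hem]
        simp
      · intro i _ hi
        rw [Pi.smul_apply, hem]
        simp [Pi.single_eq_of_ne hi.symm]
      · intro h; exact absurd (Finset.mem_univ j) h
    rw [pbil, hz, Matrix.mulVec_sum, psumr]
    refine Finset.sum_eq_zero fun i _ => ?_
    rw [Matrix.mulVec_smul, psr, ← hL, hx, mul_zero]
  have hqn : (polarBilin q).Nondegenerate := by
    have key : ∀ u, (∀ v, polar q u v = 0) → u = 0 := by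
      intro u hu
      have h1 : L u = 0 := hspan _ fun v => by
        have := hqp u v
        rw [hu] at this
        exact (mul_eq_zero.1 this.symm).resolve_left hζ
      rw [hL] at h1
      have h2 := hPinj _ h1
      rw [hem] at h2
      funext i
      exact Subtype.ext (congrFun h2 i)
    exact ⟨fun u hu => key u hu, fun u hu => key u fun v => by rw [pc]; exact hu v⟩
  obtain ⟨l, rfl⟩ : ∃ l, m = l + 1 := ⟨m - 1, by omega⟩
  have hfr : finrank F (ι → F) = 2 * (l + 1) := by rw [finrank_fintype_fun_eq_card, hm]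
  haveI : Finite F₀ := Subtype.finite
  rcases exists_isom_plus_or_minus hqn (m := l) (by rw [finrank_fintype_fun_eq_card, hm]) with ⟨g, hg⟩ | ⟨ζ₀, g, hζ₀, hg⟩
  · have hgp : ∀ x y, polar q (g x) (g y) = polar (qfPlus (l + 1) F₀) x y := by
      intro x y
      rw [polar, polar, ← _root_.map_add, hg, hg, hg]
    refine isPlus_of_family (κ := Fin (l + 1)) (w := fun i => L (g (Pi.single (Sum.inl i) 1)))
      (w' := fun i => L (g (Pi.single (Sum.inr i) 1))) (c := fun _ => ζ⁻¹) (fun _ => inv_ne_zero hζ) ?_ ?_ ?_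
      (by rw [Fintype.card_fin, hfr])
    · intro i
      have := hq (g (Pi.single (Sum.inl i) 1))
      rw [hg, qfPlus_apply] at this
      simp only [Pi.single_apply] at this
      simp at this
      exact this.resolve_left hζ
    · intro i j
      have := hqp (g (Pi.single (Sum.inl i) 1)) (g (Pi.single (Sum.inl j) 1))
      rw [hgp, polar_qfPlus] at this
      simp [Pi.single_apply] at this
      exact this.resolve_left hζ
    · intro i j
      have := hqp (g (Pi.single (Sum.inl i) 1)) (g (Pi.single (Sum.inr j) 1))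
      rw [hgp, polar_qfPlus] at this
      have h2 : (∑ k : Fin (l + 1), ((Pi.single (Sum.inl i) (1 : F₀) : Fin (l + 1) ⊕ Fin (l + 1) → F₀) (Sum.inl k) *
          (Pi.single (Sum.inr j) (1 : F₀) : Fin (l + 1) ⊕ Fin (l + 1) → F₀) (Sum.inr k) +
          (Pi.single (Sum.inr j) (1 : F₀) : Fin (l + 1) ⊕ Fin (l + 1) → F₀) (Sum.inl k) *
          (Pi.single (Sum.inl i) (1 : F₀) : Fin (l + 1) ⊕ Fin (l + 1) → F₀) (Sum.inr k))) = if i = j then 1 else 0 := by
        simp [Pi.single_apply, eq_comm]
      rw [h2] at this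
      change polar Q _ _ = _
      split_ifs at this ⊢
      · exact eq_inv_of_mul_eq_one_right (by rw [← this]; simp)
      · have h3 : ζ * polar Q (L (g (Pi.single (Sum.inl i) 1))) (L (g (Pi.single (Sum.inr j) 1))) = 0 := by
          rw [← this]; rfl
        exact (mul_eq_zero.1 h3).resolve_left hζ
  · -- minus type over the subfield
    obtain ⟨τ, hτ⟩ := exists_root_of_mem hF ζ₀.2
    have hgp : ∀ x y, ζ * polar Q (L (g x)) (L (g y)) = ((polar (qfMinus l F₀ 1 ζ₀) x y : F₀) : F) := by
      intro x y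
      rw [← hqp, polar, polar, ← _root_.map_add, hg, hg, hg]
    have hgq : ∀ x, ζ * Q (L (g x)) = ((qfMinus l F₀ 1 ζ₀ x : F₀) : F) := by
      intro x
      rw [← hq, hg]
    have hp0 : ∀ x y, polar (qfMinus l F₀ 1 ζ₀) x y = 0 → polar Q (L (g x)) (L (g y)) = 0 := by
      intro x y h
      have := hgp x y
      rw [h] at this
      exact (mul_eq_zero.1 (this.trans (by simp))).resolve_left hζ
    have hq0 : ∀ x, qfMinus l F₀ 1 ζ₀ x = 0 → Q (L (g x)) = 0 := by
      intro x h
      have := hgq x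
      rw [h] at this
      exact (mul_eq_zero.1 (this.trans (by simp))).resolve_left hζ
    have hp1 : ∀ x y, polar (qfMinus l F₀ 1 ζ₀) x y = 1 → polar Q (L (g x)) (L (g y)) = ζ⁻¹ := by
      intro x y h
      have := hgp x y
      rw [h] at this
      exact eq_inv_of_mul_eq_one_right (this.trans (by simp))
    obtain ⟨A, hA⟩ : ∃ A : Fin l → (ι → F), ∀ i, A i = L (g (Pi.single (Sum.inl (Sum.inl i)) 1)) := ⟨_, fun _ => rfl⟩
    obtain ⟨B, hB⟩ : ∃ B : Fin l → (ι → F), ∀ i, B i = L (g (Pi.single (Sum.inl (Sum.inr i)) 1)) := ⟨_, fun _ => rfl⟩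
    obtain ⟨x, hx⟩ : ∃ x, x = L (g (Pi.single (Sum.inr 0) 1)) := ⟨_, rfl⟩
    obtain ⟨y, hy⟩ : ∃ y, y = L (g (Pi.single (Sum.inr 1) 1)) := ⟨_, rfl⟩
    have qA : ∀ i, Q (A i) = 0 := fun i => by
      rw [hA]; apply hq0; rw [qfMinus_apply]; simp [Pi.single_apply]
    have pAA : ∀ i j, polar Q (A i) (A j) = 0 := fun i j => by
      rw [hA, hA]; apply hp0; rw [polar_qfMinus]; simp [Pi.single_apply]
    have pAB : ∀ i j, i ≠ j → polar Q (A i) (B j) = 0 := fun i j hij => by
      rw [hA, hB]; apply hp0; rw [polar_qfMinus]; simp [Pi.single_apply, hij, hij.symm]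
    have pAB1 : ∀ i, polar Q (A i) (B i) = ζ⁻¹ := fun i => by
      rw [hA, hB]; apply hp1; rw [polar_qfMinus]; simp [Pi.single_apply]
    have pAx : ∀ i, polar Q (A i) x = 0 := fun i => by
      rw [hA, hx]; apply hp0; rw [polar_qfMinus]; simp [Pi.single_apply]
    have pAy : ∀ i, polar Q (A i) y = 0 := fun i => by
      rw [hA, hy]; apply hp0; rw [polar_qfMinus]; simp [Pi.single_apply]
    have pBx : ∀ i, polar Q x (B i) = 0 := fun i => by
      rw [hB, hx]; apply hp0; rw [polar_qfMinus]; simp [Pi.single_apply]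
    have pBy : ∀ i, polar Q y (B i) = 0 := fun i => by
      rw [hB, hy]; apply hp0; rw [polar_qfMinus]; simp [Pi.single_apply]
    have pxy : polar Q x y = ζ⁻¹ := by
      rw [hx, hy]; apply hp1; rw [polar_qfMinus]; simp [Pi.single_apply]
    have qx : ζ * Q x = 1 := by
      rw [hx, hgq, qfMinus_apply]; simp [Pi.single_apply]
    have qy : ζ * Q y = (ζ₀ : F) := by
      rw [hy, hgq, qfMinus_apply]; simp [Pi.single_apply]
    have hpxx : polar Q x x = 2 * ζ⁻¹ := by
      rw [pself]
      have : Q x = ζ⁻¹ := eq_inv_of_mul_eq_one_right qx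
      rw [this]
    have hδ : 2 * τ + 1 ≠ 0 := by
      intro h0
      have h1 : (1 : F) - 4 * ζ₀ = 0 := by linear_combination (2 * τ + 1) * h0 - 4 * hτ
      by_cases h2 : (2 : F) = 0
      · have : (1 : F) = 0 := by linear_combination h1 + 2 * (ζ₀ : F) * h2
        exact one_ne_zero this
      · have h2' : (2 : F₀) ≠ 0 := by
          intro h
          apply h2
          have : ((2 : F₀) : F) = ((0 : F₀) : F) := congrArg Subtype.val h
          push_cast at this
          exact this
        apply hζ₀ (-(1 / 2))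
        have h4 : (1 : F₀) - 4 * ζ₀ = 0 := by
          apply Subtype.ext
          push_cast
          exact h1
        field_simp
        linear_combination -h4
    obtain ⟨w, hw0, hw1⟩ : ∃ w : Option (Fin l) → (ι → F), w none = τ • x + y ∧ ∀ i, w (some i) = A i :=
      ⟨fun o => o.elim (τ • x + y) A, rfl, fun _ => rfl⟩
    obtain ⟨w', hw'0, hw'1⟩ : ∃ w' : Option (Fin l) → (ι → F), w' none = x ∧ ∀ i, w' (some i) = B i :=
      ⟨fun o => o.elim x B, rfl, fun _ => rfl⟩
    obtain ⟨c, hc0, hc1⟩ : ∃ c : Option (Fin l) → F, c none = ζ⁻¹ * (2 * τ + 1) ∧ ∀ i, c (some i) = ζ⁻¹ :=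
      ⟨fun o => o.elim (ζ⁻¹ * (2 * τ + 1)) fun _ => ζ⁻¹, rfl, fun _ => rfl⟩
    have qz : Q (τ • x + y) = 0 := by
      apply mul_left_cancel₀ hζ
      rw [qadd, qsmul, psl, pxy]
      have : ζ * (τ * τ * Q x + Q y + τ * ζ⁻¹) = τ * τ * (ζ * Q x) + ζ * Q y + τ * (ζ * ζ⁻¹) := by ring
      rw [this, qx, qy, mul_inv_cancel₀ hζ, mul_zero]
      linear_combination hτ
    refine isPlus_of_family (w := w) (w' := w') (c := c) ?_ ?_ ?_ ?_ (by
      rw [Fintype.card_option, Fintype.card_fin, hfr])
    · intro k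
      rcases k with _ | i
      · rw [hc0]; exact mul_ne_zero (inv_ne_zero hζ) hδ
      · rw [hc1]; exact inv_ne_zero hζ
    · intro k
      rcases k with _ | i
      · rw [hw0, qz]
      · rw [hw1, qA]
    · intro k j
      rcases k with _ | i <;> rcases j with _ | j
      · rw [hw0, pself, qz, mul_zero]
      · rw [hw0, hw1, pal, psl, pc Q x, pAx, pc Q y, pAy]; ring
      · rw [hw0, hw1, par, psr, pAx, pAy]; ring
      · rw [hw1, hw1, pAA]
    · intro k j
      rcases k with _ | i <;> rcases j with _ | j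
      · rw [hw0, hw'0, hc0, if_pos rfl, pal, psl, hpxx, pc Q y, pxy]; ring
      · rw [hw0, hw'1, if_neg (by simp), pal, psl, pBx, pBy]; ring
      · rw [hw1, hw'0, if_neg (by simp), pAx]
      · rw [hw1, hw'1, hc1]
        by_cases hij : i = j
        · subst hij; rw [if_pos rfl, pAB1]
        · rw [if_neg (by simpa using hij), pAB i j hij]

end sub

end Cfsg.Agent.OCase
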