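import Cfsg.Agent.OCase.SubfieldType

/-!
Tensor structures with alternating factors force plus type.
-/

set_option autoImplicit false
set_option linter.unusedSectionVars false

namespace Cfsg.Agent.OCase

open QuadraticMap Module Cfsg.Agent.Orth Cfsg.Geo
open scoped Matrix

variable {ι : Type} [Fintype ι] [DecidableEq ι] {F : Type*} [Field F] [Fintype F] {Q : QuadraticForm F (ι → F)}

theorem gl_mulVec_inj (P : Matrix.GeneralLinearGroup ι F) {x : ι → F} (hx : (P : Matrix ι ι F) *ᵥ x = 0) : x = 0 := by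
  have h1 := congrArg (fun y => ((P⁻¹ : Matrix.GeneralLinearGroup ι F) : Matrix ι ι F) *ᵥ y) hx
  simp only [Matrix.mulVec_mulVec, Matrix.mulVec_zero] at h1
  rwa [← Units.val_mul, inv_mul_cancel, Units.val_one, Matrix.one_mulVec] at h1

/-- class 4, alternating factors: `x₀ ⊗ F^{n₂}` is totally singular -/
theorem isPlus_of_tensor {n₁ n₂ : ℕ} {e : ι ≃ Fin n₁ × Fin n₂} {P : Matrix.GeneralLinearGroup ι F} (h1 : 0 < n₁)
    (h : ∀ (x₁ : Fin n₁ → F) (x₂ : Fin n₂ → F),
      Q ((P : Matrix ι ι F) *ᵥ ((fun a : Fin n₁ × Fin n₂ => x₁ a.1 * x₂ a.2) ∘ e)) = 0)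
    (hd : Fintype.card ι = 2 * n₂) : IsPlus Q := by
  set i₀ : Fin n₁ := ⟨0, h1⟩
  let T : (Fin n₂ → F) →ₗ[F] (ι → F) :=
    { toFun := fun y => (P : Matrix ι ι F) *ᵥ
        ((fun a : Fin n₁ × Fin n₂ => (Pi.single i₀ (1 : F) : Fin n₁ → F) a.1 * y a.2) ∘ e)
      map_add' := fun y y' => by
        rw [← Matrix.mulVec_add]
        congr 1
        funext i
        simp only [Function.comp_apply, Pi.add_apply]
        ring
      map_smul' := fun c y => by
        rw [RingHom.id_apply, ← Matrix.mulVec_smul]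
        congr 1
        funext i
        simp only [Function.comp_apply, Pi.smul_apply, smul_eq_mul]
        ring }
  have hT : ∀ y, T y = (P : Matrix ι ι F) *ᵥ
        ((fun a : Fin n₁ × Fin n₂ => (Pi.single i₀ (1 : F) : Fin n₁ → F) a.1 * y a.2) ∘ e) := fun _ => rfl
  have hinj : Function.Injective T := by
    rw [← LinearMap.ker_eq_bot, LinearMap.ker_eq_bot']
    intro y hy
    rw [hT] at hy
    have h2 := gl_mulVec_inj P hy
    funext j
    have h3 := congrFun h2 (e.symm (i₀, j))
    simpa using h3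
  refine ⟨LinearMap.range T, ?_, ?_⟩
  · rintro _ ⟨y, rfl⟩
    rw [hT]; exact h _ _
  · rw [LinearMap.finrank_range_of_inj hinj, finrank_fintype_fun_eq_card, finrank_fintype_fun_eq_card, hd,
      Fintype.card_fin]

/-- class 7, three alternating factors of dimension two -/
theorem isPlus_of_tensor_three {e : ι ≃ (Fin 3 → Fin 2)} {P : Matrix.GeneralLinearGroup ι F}
    {f₁ : (Fin 2 → F) → (Fin 2 → F) → F} (hf : IsSymplecticForm f₁)
    (hst : IsTensorPowerFormStructure id (polar ⇑Q) f₁ e P)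
    (h : ∀ x : Fin 3 → Fin 2 → F, Q ((P : Matrix ι ι F) *ᵥ ((fun a : Fin 3 → Fin 2 => ∏ i, x i (a i)) ∘ e)) = 0) :
    IsPlus Q := by
  obtain ⟨c, hc, hst⟩ := hst
  obtain ⟨B, hB⟩ : ∃ B : (Fin 3 → Fin 2) → (ι → F), ∀ a, B a = (P : Matrix ι ι F) *ᵥ (Pi.single a (1 : F) ∘ e) :=
    ⟨_, fun _ => rfl⟩
  have hq : ∀ a, Q (B a) = 0 := by
    intro a
    rw [hB, ← h fun i => Pi.single (a i) 1]
    congr 3
    funext b
    by_cases hab : b = a
    · subst hab
      simp
    · rw [Pi.single_eq_of_ne hab]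
      obtain ⟨i, hi⟩ := Function.ne_iff.1 hab
      exact (Finset.prod_eq_zero (Finset.mem_univ i) (Pi.single_eq_of_ne hi _)).symm
  have hp : ∀ a b, polar Q (B a) (B b) = c * ∏ i, gramMatrix f₁ (a i) (b i) := by
    intro a b
    rw [hB, hB, hst]
    congr 1
    rw [Finset.sum_eq_single a]
    · rw [Finset.sum_eq_single b]
      · simp
      · intro b' _ hb'
        simp [Pi.single_eq_of_ne hb']
      · intro hb; exact absurd (Finset.mem_univ b) hb
    · intro a' _ ha'
      refine Finset.sum_eq_zero fun b' _ => ?_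
      simp [Pi.single_eq_of_ne ha']
    · intro ha; exact absurd (Finset.mem_univ a) ha
  set G := gramMatrix f₁ with hG
  have g00 : G 0 0 = 0 := hf.alternating _
  have g11 : G 1 1 = 0 := hf.alternating _
  have g01 : G 0 1 ≠ 0 := by
    intro h0
    obtain ⟨-, ⟨y, hy⟩⟩ := hf.nondegenerate (Pi.single 0 1) (by simp)
    apply hy
    have hy' : y = y 0 • Pi.single 0 1 + y 1 • Pi.single 1 1 := by
      funext i
      fin_cases i <;> simp
    rw [hy', hf.bilinear.add_right, hf.bilinear.smul_right, hf.bilinear.smul_right]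
    have e0 : f₁ (Pi.single 0 1) (Pi.single 0 1) = 0 := g00
    have e1 : f₁ (Pi.single 0 1) (Pi.single 1 1) = 0 := h0
    rw [e0, e1]; ring
  have g10 : G 1 0 = - G 0 1 := hf.skew _ _
  let fl : Fin 2 → Fin 2 := fun i => if i = 0 then 1 else 0
  have hfl : ∀ i j : Fin 2, i ≠ j → G i (fl j) = 0 := by
    intro i j hij
    fin_cases i <;> fin_cases j
    · exact absurd rfl hij
    · simpa [fl] using g00
    · simpa [fl] using g11
    · exact absurd rfl hij
  have hfl1 : ∀ i : Fin 2, G i (fl i) ≠ 0 := by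
    intro i
    fin_cases i
    · simpa [fl] using g01
    · simpa [fl, g10] using g01
  refine isPlus_of_family (κ := Fin 2 × Fin 2) (w := fun s => B ![0, s.1, s.2])
    (w' := fun s => B ![1, fl s.1, fl s.2]) (c := fun s => c * (G 0 1 * G s.1 (fl s.1) * G s.2 (fl s.2)))
    (fun s => mul_ne_zero hc (mul_ne_zero (mul_ne_zero g01 (hfl1 _)) (hfl1 _))) (fun s => hq _) ?_ ?_ ?_
  · intro s s'
    rw [hp, Fin.prod_univ_three]
    simp [g00]
  · intro s s'
    rw [hp, Fin.prod_univ_three]
    by_cases hss : s = s'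
    · subst hss
      simp
    · rw [if_neg hss]
      have : s.1 ≠ s'.1 ∨ s.2 ≠ s'.2 := by
        by_contra hcon
        push Not at hcon
        exact hss (Prod.ext hcon.1 hcon.2)
      rcases this with h3 | h3
      · have := hfl _ _ h3
        simp [this]
      · have := hfl _ _ h3
        simp [this]
  · rw [finrank_fintype_fun_eq_card, Fintype.card_congr e]
    simp

end Cfsg.Agent.OCase
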