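import Cfsg.Agent.OCase.Cases2
import Cfsg.Agent.OCase.Goals
import Cfsg.Agent.OCase.TensorPlus
import Cfsg.Agent.OCase.SubfieldType
import Cfsg.Agent.OCase.SixPlus
import Cfsg.Agent.OCase.ExtClass
import Cfsg.Agent.Asch.OrthMain
import Cfsg.Agent.AschCases.OrthNot
import Cfsg.Agent.AschCases.FieldSub

/-!
Maximal subgroups of small orthogonal groups: the structure theorem for maximal subgroups.
-/

set_option autoImplicit false
set_option linter.unusedSectionVars false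

namespace Cfsg.Agent.OCase

open QuadraticMap Module Cfsg.Agent.Orth Cfsg.Geo

variable {n : ℕ} {F : Type*} [Field F] [Fintype F] {Q : QuadraticForm F (Fin n → F)}
  {H : Subgroup (Matrix.GeneralLinearGroup (Fin n) F)}

theorem fixes_omegaGL (Q : QuadraticForm F (Fin n → F)) : FixesQuadForm (matrixSet (omegaGL ⇑Q)) ⇑Q := by
  rintro _ ⟨g, ⟨h, -, rfl⟩, rfl⟩ v
  exact h.2 v v

namespace Ctx

theorem fixes (c : Ctx Q H) : FixesQuadForm (matrixSet H) ⇑Q := by
  rintro _ ⟨g, hg, rfl⟩ v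
  exact fixes_omegaGL Q _ ⟨g, c.max.1.le hg, rfl⟩ v

theorem eq_inf (c : Ctx Q H) {M : Subgroup (Matrix.GeneralLinearGroup (Fin n) F)} (h1 : H ≤ M)
    (h2 : ¬ omegaGL ⇑Q ≤ M) : H = M ⊓ omegaGL ⇑Q := by
  rcases c.max.2 (M ⊓ omegaGL ⇑Q) (le_inf h1 c.max.1.le) inf_le_right with h | h
  · exact h.symm
  · exact absurd (inf_eq_right.mp h) h2

/-- **the structure theorem for maximal subgroups** -/
theorem member (c : Ctx Q H) (hsq : ∀ a, Even a → 4 ≤ a → n ≠ a * a) :
    (∃ M, Asch.OrthMember ⇑Q M ∧ H = M ⊓ omegaGL ⇑Q) ∨ InOrthogonalResidualClass H := by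
  have h7 := c.card
  rcases Asch.orthogonal_structure (by omega) (isNondegenerateQuadraticForm_coe c.hQ)
    (fun _ a ha h4 => by rw [Fintype.card_fin]; exact hsq a ha h4) c.fixes with ⟨M, hM, hle⟩ | h
  · exact Or.inl ⟨M, hM, c.eq_inf hle (AschCases.orthMember_not_le' c.hQ c.card hM)⟩
  · exact Or.inr h

theorem t_ne_zero {t k : ℕ} {D : Fin t → Submodule F (Fin n → F)} (hD : IsOrthogonalMDecomposition ⇑Q k D) :
    2 ≤ t := hD.decomp.decomp.two_le

end Ctx

end Cfsg.Agent.OCase
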