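import Cfsg.Agent.OCase.ExtForm

/-!
Two-dimensional spaces over the extension field.
-/

set_option autoImplicit false
set_option linter.unusedSectionVars false

namespace Cfsg.Agent.OCase

open QuadraticMap Module Cfsg.Agent.Orth

section plane

variable {E V : Type*} [Field E] [Finite E] [AddCommGroup V] [Module E V] [FiniteDimensional E V]
  {q : QuadraticForm E V}

theorem exists_hyp_pair (hq : (polarBilin q).Nondegenerate) (hd : finrank E V = 2) (hp : IsPlus q) :
    ∃ v₁ v₂ : V, q v₁ = 0 ∧ q v₂ = 0 ∧ polar q v₁ v₂ = 1 ∧ ∀ v, ∃ a b : E, v = a • v₁ + b • v₂ := by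
  obtain ⟨g, hg⟩ := hp.exists_isom hq (m := 1) (by rw [hd])
  obtain ⟨m, hm⟩ : ∃ m : E → E → (Fin 1 ⊕ Fin 1 → E), ∀ a b, m a b = Sum.elim (fun _ => a) (fun _ => b) :=
    ⟨_, fun _ _ => rfl⟩
  have hgm : ∀ a b, q (g (m a b)) = a * b := by
    intro a b
    rw [hg, qfPlus_apply, hm]
    simp
  have hadd : ∀ a b c d, m a b + m c d = m (a + c) (b + d) := by
    intro a b c d
    rw [hm, hm, hm]
    funext i
    rcases i with i | i <;> rfl
  have hsmul : ∀ r a b, r • m a b = m (r * a) (r * b) := by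
    intro r a b
    rw [hm, hm]
    funext i
    rcases i with i | i <;> rfl
  refine ⟨g (m 1 0), g (m 0 1), by rw [hgm]; ring, by rw [hgm]; ring, ?_, fun v => ?_⟩
  · rw [polar, ← _root_.map_add, hadd, hgm, hgm, hgm]; ring
  · obtain ⟨x, rfl⟩ := g.surjective v
    refine ⟨x (Sum.inl 0), x (Sum.inr 0), ?_⟩
    rw [← _root_.map_smul, ← _root_.map_smul, ← _root_.map_add, hsmul, hsmul, hadd]
    congr 1
    rw [hm]
    funext i
    rcases i with i | i
    · rw [Subsingleton.elim i 0]; simp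
    · rw [Subsingleton.elim i 0]; simp

/-- the rotation of a plane of minus type -/
theorem exists_theta (hq : (polarBilin q).Nondegenerate) (hd : finrank E V = 2) (hp : ¬ IsPlus q) {ζ : E}
    (hζ : ∀ t : E, t ^ 2 + t + ζ ≠ 0) :
    ∃ (v₁ v₂ : V) (θ : V →ₗ[E] V), q v₁ = 1 ∧ q v₂ = ζ ∧ polar q v₁ v₂ = 1 ∧
      (∀ v, ∃ a b : E, v = a • v₁ + b • v₂) ∧ (∀ v, q (θ v) = ζ * q v) ∧ (∀ v, polar q (θ v) v = q v) ∧
      ∀ v, θ (θ v) = θ v - ζ • v := by
  obtain ⟨ζ₁, g₁, hζ₁, hg₁⟩ := exists_isom_of_not_isPlus hq (m := 0) (by rw [hd]) hp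
  obtain ⟨g₂, hg₂⟩ := qfMinus_isom 0 hζ hζ₁
  set g := g₂.trans g₁ with hgdef
  have hg : ∀ v, q (g v) = qfMinus 0 E 1 ζ v := fun v => by
    rw [hgdef, LinearEquiv.trans_apply, hg₁, hg₂]
  obtain ⟨m, hm⟩ : ∃ m : E → E → ((Fin 0 ⊕ Fin 0) ⊕ Fin 2 → E), ∀ a b, m a b = Sum.elim (fun _ => 0) ![a, b] :=
    ⟨_, fun _ _ => rfl⟩
  have hgm : ∀ a b, q (g (m a b)) = a * a + a * b + ζ * b * b := by
    intro a b
    rw [hg, qfMinus_apply, hm]
    simp
    ring
  have hadd : ∀ a b c d, m a b + m c d = m (a + c) (b + d) := by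
    intro a b c d
    rw [hm, hm, hm]
    funext i
    rcases i with i | i
    · simp
    · fin_cases i <;> simp
  have hsmul : ∀ r a b, r • m a b = m (r * a) (r * b) := by
    intro r a b
    rw [hm, hm]
    funext i
    rcases i with i | i
    · simp
    · fin_cases i <;> simp
  have hext : ∀ x : (Fin 0 ⊕ Fin 0) ⊕ Fin 2 → E, x = m (x (Sum.inr 0)) (x (Sum.inr 1)) := by
    intro x
    rw [hm]
    funext i
    rcases i with i | i
    · rcases i with i | i <;> exact i.elim0
    · fin_cases i <;> simp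
  have m0 : ∀ a b, m a b (Sum.inr 0) = a := fun a b => by rw [hm]; rfl
  have m1 : ∀ a b, m a b (Sum.inr 1) = b := fun a b => by rw [hm]; rfl
  let M : ((Fin 0 ⊕ Fin 0) ⊕ Fin 2 → E) →ₗ[E] ((Fin 0 ⊕ Fin 0) ⊕ Fin 2 → E) :=
    { toFun := fun x => m (-ζ * x (Sum.inr 1)) (x (Sum.inr 0) + x (Sum.inr 1))
      map_add' := fun x y => by
        rw [hadd]
        simp only [Pi.add_apply]
        congr 1 <;> ring
      map_smul' := fun r x => by
        rw [RingHom.id_apply, hsmul]
        simp only [Pi.smul_apply, smul_eq_mul]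
        congr 1 <;> ring }
  have hM : ∀ a b, M (m a b) = m (-ζ * b) (a + b) := by
    intro a b
    change m _ _ = _
    rw [m0, m1]
  let θ : V →ₗ[E] V := (g : _ →ₗ[E] V) ∘ₗ M ∘ₗ (g.symm : V →ₗ[E] _)
  have hθ : ∀ a b, θ (g (m a b)) = g (m (-ζ * b) (a + b)) := by
    intro a b
    change g (M (g.symm (g (m a b)))) = _
    rw [LinearEquiv.symm_apply_apply, hM]
  have hrep : ∀ v : V, ∃ a b, v = g (m a b) := by
    intro v
    obtain ⟨x, rfl⟩ := g.surjective v
    exact ⟨_, _, by rw [← hext x]⟩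
  have hpol : ∀ a b c d, polar q (g (m a b)) (g (m c d)) = 2 * a * c + a * d + b * c + 2 * ζ * b * d := by
    intro a b c d
    rw [polar, ← _root_.map_add, hadd, hgm, hgm, hgm]; ring
  refine ⟨g (m 1 0), g (m 0 1), θ, by rw [hgm]; ring, by rw [hgm]; ring, by rw [hpol]; ring, fun v => ?_, fun v => ?_,
    fun v => ?_, fun v => ?_⟩
  · obtain ⟨a, b, rfl⟩ := hrep v
    refine ⟨a, b, ?_⟩
    rw [← _root_.map_smul, ← _root_.map_smul, ← _root_.map_add, hsmul, hsmul, hadd]
    congr 2 <;> ring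
  · obtain ⟨a, b, rfl⟩ := hrep v
    rw [hθ, hgm, hgm]; ring
  · obtain ⟨a, b, rfl⟩ := hrep v
    rw [hθ, hpol, hgm]; ring
  · obtain ⟨a, b, rfl⟩ := hrep v
    rw [hθ, hθ, ← _root_.map_smul, ← _root_.map_sub, hsmul]
    congr 1
    rw [sub_eq_add_neg, show -(m (ζ * a) (ζ * b)) = m (-(ζ * a)) (-(ζ * b)) from by
      rw [← neg_one_smul E, hsmul]; congr 1 <;> ring, hadd]
    congr 1 <;> ring

/-- uniqueness of the rotation up to conjugation -/
theorem theta_unique (hq : (polarBilin q).Nondegenerate) {ζ : E} (hζ : ∀ t : E, t ^ 2 + t + ζ ≠ 0) {v₁ v₂ : V}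
    (hv₁ : v₁ ≠ 0) (hgen : ∀ v, ∃ a b : E, v = a • v₁ + b • v₂)
    {θ x : V →ₗ[E] V} (hθp : ∀ v, polar q (θ v) v = q v) (hθ2 : ∀ v, θ (θ v) = θ v - ζ • v)
    (hxp : ∀ v, polar q (x v) v = q v) (hx2 : ∀ v, x (x v) = x v - ζ • v) :
    (∀ v, x v = θ v) ∨ (∀ v, x v = v - θ v) := by
  have h2q : ∀ v, polar q v v = 2 * q v := fun v => pself q v
  -- polarised relations
  have alt : ∀ (d : V →ₗ[E] V), (∀ v, polar q (d v) v = 0) → ∀ v w, polar q (d v) w = - polar q (d w) v := by
    intro d hd v w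
    have := hd (v + w)
    rw [_root_.map_add, pal, par, par, hd, hd] at this
    linear_combination this
  have alt0 : ∀ (d : V →ₗ[E] V), (∀ v, polar q (d v) v = 0) → polar q (d v₁) v₂ = 0 → d = 0 := by
    intro d hd h12
    have h1 : d v₁ = 0 := by
      refine hq.1 _ fun w => ?_
      obtain ⟨a, b, rfl⟩ := hgen w
      rw [pbil, par, psr, psr, hd, h12]; ring
    have h2 : d v₂ = 0 := by
      refine hq.1 _ fun w => ?_
      obtain ⟨a, b, rfl⟩ := hgen w
      rw [pbil, par, psr, psr, hd, alt d hd, h12]; ring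
    ext w
    obtain ⟨a, b, rfl⟩ := hgen w
    rw [_root_.map_add, _root_.map_smul, _root_.map_smul, h1, h2, smul_zero, smul_zero, add_zero, LinearMap.zero_apply]
  set d₀ : V →ₗ[E] V := 2 • θ - LinearMap.id with hd₀
  have hd₀v : ∀ v, d₀ v = (2 : E) • θ v - v := fun v => by
    rw [hd₀, LinearMap.sub_apply, LinearMap.smul_apply, LinearMap.id_apply, two_smul, two_smul]
  have hd₀p : ∀ v, polar q (d₀ v) v = 0 := by
    intro v
    rw [hd₀v, pdl, psl, hθp, pself]; ring
  have hdisc : 4 * ζ - 1 ≠ 0 := by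
    intro h0
    by_cases h2 : (2 : E) = 0
    · have : (1 : E) = 0 := by linear_combination 2 * ζ * h2 - h0
      exact one_ne_zero this
    · apply hζ (-(1 / 2))
      have h4 : (4 : E) ≠ 0 := by
        have : (4 : E) = 2 * 2 := by norm_num
        rw [this]; exact mul_ne_zero h2 h2
      field_simp
      linear_combination h0
  have hd₀2 : ∀ v, d₀ (d₀ v) = (1 - 4 * ζ) • v := by
    intro v
    rw [hd₀v v, _root_.map_sub, _root_.map_smul, hd₀v, hd₀v, hθ2]
    module
  have hs₀ : polar q (d₀ v₁) v₂ ≠ 0 := by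
    intro h0
    have := alt0 d₀ hd₀p h0
    have h1 := hd₀2 v₁
    rw [this, LinearMap.zero_apply] at h1
    rcases smul_eq_zero.1 h1.symm with h3 | h3
    · exact hdisc (by linear_combination -h3)
    · exact hv₁ h3
  set d : V →ₗ[E] V := x - θ with hd
  have hdp : ∀ v, polar q (d v) v = 0 := by
    intro v
    rw [hd, LinearMap.sub_apply, pdl, hxp, hθp, sub_self]
  set e : E := polar q (d v₁) v₂ / polar q (d₀ v₁) v₂ with he
  have hde : d = e • d₀ := by
    rw [← sub_eq_zero]
    apply alt0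
    · intro v
      rw [LinearMap.sub_apply, LinearMap.smul_apply, pdl, psl, hdp, hd₀p]; ring
    · rw [LinearMap.sub_apply, LinearMap.smul_apply, pdl, psl, he]
      field_simp
      ring
  have hxv : ∀ v, x v = θ v + e • d₀ v := by
    intro v
    have := LinearMap.congr_fun hde v
    rw [hd, LinearMap.sub_apply, LinearMap.smul_apply] at this
    rw [← this]; abel
  -- `e (e + 1) (1 - 4ζ) = 0`
  have hkey : (e * (e + 1) * (1 - 4 * ζ)) • v₁ = 0 := by
    have h1 := hx2 v₁
    have h2 : x (x v₁) - x v₁ + ζ • v₁ = 0 := by rw [h1]; abel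
    rw [hxv (x v₁), hxv v₁, _root_.map_add, _root_.map_smul, _root_.map_add, _root_.map_smul, hd₀2, hd₀v (θ v₁),
      hd₀v v₁, hθ2, _root_.map_sub, _root_.map_smul, hθ2] at h2
    rw [← h2]
    module
  have h3 := (smul_eq_zero.1 hkey).resolve_right hv₁
  have h4 : e * (e + 1) = 0 := (mul_eq_zero.1 h3).resolve_right (fun h => hdisc (by linear_combination -h))
  rcases mul_eq_zero.1 h4 with h5 | h5
  · left
    intro v
    rw [hxv, h5, zero_smul, add_zero]
  · right
    intro v
    have : e = -1 := by linear_combination h5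
    rw [hxv, this, hd₀v]
    module

end plane

section ext

variable {F E V : Type*} [Field F] [Finite F] [Field E] [Algebra F E] [FiniteDimensional F E]
  [AddCommGroup V] [Module F V] [Module E V] [IsScalarTower F E V] [FiniteDimensional F V]
  {Q : QuadraticForm F V}

/-- `g` is semilinear with respect to `σ` -/
theorem QE_semilinear (hs : SA E Q) {g : V → V} (hgq : ∀ v, Q (g v) = Q v) (σ : E ≃ₐ[F] E)
    (hσ : ∀ (e : E) (v : V), g (e • v) = σ e • g v) (v : V) : QE hs (g v) = σ (QE hs v) := by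
  apply QE_unique
  intro e
  have h1 : e * e * σ (QE hs v) = σ (σ.symm e * σ.symm e * QE hs v) := by
    rw [_root_.map_mul, _root_.map_mul, AlgEquiv.apply_symm_apply]
  rw [h1, Algebra.trace_eq_of_algEquiv, QE_spec, ← hgq, hσ, AlgEquiv.apply_symm_apply]

theorem QE_polar_semilinear (hs : SA E Q) {g : V → V} (hadd : ∀ v w, g (v + w) = g v + g w)
    (hgq : ∀ v, Q (g v) = Q v) (σ : E ≃ₐ[F] E)
    (hσ : ∀ (e : E) (v : V), g (e • v) = σ e • g v) (v w : V) :
    polar (QE hs) (g v) (g w) = σ (polar (QE hs) v w) := by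
  rw [polar, polar, ← hadd, QE_semilinear hs hgq σ hσ, QE_semilinear hs hgq σ hσ, QE_semilinear hs hgq σ hσ,
    _root_.map_sub, _root_.map_sub]

theorem finrank_ext (F E V : Type*) [Field F] [Field E] [Algebra F E]
    [AddCommGroup V] [Module F V] [Module E V] [IsScalarTower F E V] (W : Submodule E V) :
    finrank F (W.restrictScalars F) = finrank F E * finrank E W := by
  rw [Module.finrank_mul_finrank F E W]
  rfl

/-- **plus type over `E`**: exactly two invariant totally singular subspaces of half dimension -/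
theorem plus_pair (hs : SA E Q) (hQ : (polarBilin Q).Nondegenerate) (hd : finrank E V = 2) (hp : IsPlus (QE hs)) :
    ∃ L₁ L₂ : Submodule F V, TS Q L₁ ∧ TS Q L₂ ∧ finrank F L₁ = finrank F E ∧ finrank F L₂ = finrank F E ∧
      L₁ ⊓ L₂ = ⊥ ∧ (∀ (e : E), ∀ v ∈ L₁, e • v ∈ L₁) ∧ (∀ (e : E), ∀ v ∈ L₂, e • v ∈ L₂) ∧
      ∀ L : Submodule F V, TS Q L → finrank F L = finrank F E → (∀ (e : E), ∀ v ∈ L, e • v ∈ L) →
        L = L₁ ∨ L = L₂ := by
  haveI : Finite E := finite_ext F E
  haveI : FiniteDimensional E V := Module.finite_of_finrank_pos (by rw [hd]; norm_num)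
  obtain ⟨v₁, v₂, h1, h2, h12, hgen⟩ := exists_hyp_pair (QE_nondeg hs hQ) hd hp
  have hr : 0 < finrank F E := Module.finrank_pos
  have n1 : v₁ ≠ 0 := by
    rintro rfl
    rw [polar_zero_left] at h12
    exact zero_ne_one h12
  have n2 : v₂ ≠ 0 := by
    rintro rfl
    rw [polar_zero_right] at h12
    exact zero_ne_one h12
  have hTS : ∀ v, QE hs v = 0 → TS Q ((Submodule.span E {v}).restrictScalars F) := by
    intro v hv u hu
    obtain ⟨a, rfl⟩ := Submodule.mem_span_singleton.1 ((Submodule.restrictScalars_mem F _ _).1 hu)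
    rw [← QE_trace hs, QuadraticMap.map_smul, hv, smul_zero, _root_.map_zero]
  have hinv : ∀ v : V, ∀ (e : E), ∀ u ∈ (Submodule.span E {v}).restrictScalars F,
      e • u ∈ (Submodule.span E {v}).restrictScalars F := by
    intro v e u hu
    rw [Submodule.restrictScalars_mem] at hu ⊢
    exact Submodule.smul_mem _ _ hu
  have hfr : ∀ v : V, v ≠ 0 → finrank F ((Submodule.span E {v}).restrictScalars F) = finrank F E := by
    intro v hv
    rw [finrank_ext F E V, finrank_span_singleton hv, mul_one]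
  refine ⟨(Submodule.span E {v₁}).restrictScalars F, (Submodule.span E {v₂}).restrictScalars F, hTS _ h1, hTS _ h2,
    hfr _ n1, hfr _ n2, ?_, hinv _, hinv _, ?_⟩
  · rw [eq_bot_iff]
    rintro x ⟨hx, hx'⟩
    obtain ⟨a, rfl⟩ := Submodule.mem_span_singleton.1 ((Submodule.restrictScalars_mem F _ _).1 hx)
    obtain ⟨b, hb⟩ := Submodule.mem_span_singleton.1 ((Submodule.restrictScalars_mem F _ _).1 hx')
    have h3 : polar (QE hs) (b • v₂) v₂ = polar (QE hs) (a • v₁) v₂ := by rw [hb]
    rw [psl, psl, pself, h2, h12] at h3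
    have : a = 0 := by linear_combination -h3
    rw [this, zero_smul]
    exact Submodule.zero_mem _
  · intro L hL hLd hLi
    obtain ⟨v, hv, hv0⟩ := (Submodule.ne_bot_iff L).1 (by
      rintro rfl
      rw [finrank_bot] at hLd
      omega)
    have hqv : QE hs v = 0 := QE_unique hs fun e => by
      rw [mul_zero, _root_.map_zero, hL _ (hLi e v hv)]
    have hle : (Submodule.span E {v}).restrictScalars F ≤ L := by
      intro u hu
      obtain ⟨a, rfl⟩ := Submodule.mem_span_singleton.1 ((Submodule.restrictScalars_mem F _ _).1 hu)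
      exact hLi a v hv
    have hLv : (Submodule.span E {v}).restrictScalars F = L :=
      Submodule.eq_of_le_of_finrank_eq hle (by rw [hfr v hv0, hLd])
    obtain ⟨a, b, hab⟩ := hgen v
    rw [hab, qadd, qsmul, qsmul, psl, psr, h1, h2, h12] at hqv
    have hab0 : a * b = 0 := by linear_combination hqv
    rcases mul_eq_zero.1 hab0 with h | h
    · right
      rw [← hLv, hab, h, zero_smul, zero_add]
      have hb : b ≠ 0 := by
        rintro rfl
        rw [h, zero_smul, zero_smul, zero_add] at hab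
        exact hv0 hab
      rw [Submodule.span_singleton_smul_eq (IsUnit.mk0 b hb)]
    · left
      rw [← hLv, hab, h, zero_smul, add_zero]
      have ha : a ≠ 0 := by
        rintro rfl
        rw [h, zero_smul, zero_smul, zero_add] at hab
        exact hv0 hab
      rw [Submodule.span_singleton_smul_eq (IsUnit.mk0 a ha)]

/-- **minus type over `E`, odd degree**: a canonical similarity structure over the quadratic extension of `F` -/
theorem minus_theta (hs : SA E Q) (hQ : (polarBilin Q).Nondegenerate) (hr : Odd (finrank F E))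
    (hd : finrank E V = 2) (hp : ¬ IsPlus (QE hs)) :
    ∃ (θ : V →ₗ[F] V) (ζ : F), IsHerm Q θ 1 ζ ∧ (∀ (e : E) (v : V), θ (e • v) = e • (θ v : V)) ∧
      ∀ (g : V ≃ₗ[F] V), (∀ v, Q (g v) = Q v) → (∃ σ : E ≃ₐ[F] E, ∀ (e : E) (v : V), g (e • v) = σ e • g v) →
        (∀ v, g (θ (g.symm v)) = θ v) ∨ (∀ v : V, g (θ (g.symm v)) = v - θ v) := by
  haveI : Finite E := finite_ext F E
  haveI : FiniteDimensional E V := Module.finite_of_finrank_pos (by rw [hd]; norm_num)
  obtain ⟨ζ, hζ⟩ := exists_zeta F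
  have hζE := no_root_of_odd (E := E) hr hζ
  have hqn := QE_nondeg hs hQ
  obtain ⟨v₁, v₂, θ, h1, h2, h12, hgen, hθq, hθp, hθ2⟩ := exists_theta hqn hd hp hζE
  have n1 : v₁ ≠ 0 := by
    rintro rfl
    rw [polar_zero_left] at h12
    exact zero_ne_one h12
  refine ⟨θ.restrictScalars F, ζ, ⟨fun v => ?_, fun v => ?_, fun t ht => ?_⟩, fun e v => θ.map_smul e v, ?_⟩
  · rw [LinearMap.restrictScalars_apply, ← QE_trace hs, hθq, ← Algebra.smul_def, _root_.map_smul, QE_trace,
      smul_eq_mul]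
  · rw [LinearMap.restrictScalars_apply, ← QE_polar_trace hs, hθp, QE_trace, one_mul]
  · apply hζ (-t)
    linear_combination ht
  · rintro g hg ⟨σ, hσ⟩
    have hσ' : ∀ (e : E) (v : V), g.symm (e • v) = σ.symm e • g.symm v := by
      intro e v
      apply g.injective
      rw [LinearEquiv.apply_symm_apply, hσ, AlgEquiv.apply_symm_apply, LinearEquiv.apply_symm_apply]
    let x : V →ₗ[E] V :=
      { toFun := fun v => g (θ (g.symm v))
        map_add' := fun v w => by simp only [_root_.map_add]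
        map_smul' := fun e v => by
          rw [hσ', LinearMap.map_smul, hσ, AlgEquiv.apply_symm_apply, RingHom.id_apply] }
    have hx : ∀ v, x v = g (θ (g.symm v)) := fun v => rfl
    have hgp := QE_polar_semilinear hs (g := g) (fun v w => _root_.map_add g v w) hg σ hσ
    have hgq := QE_semilinear hs (g := g) hg σ hσ
    have hxp : ∀ v, polar (QE hs) (x v) v = QE hs v := by
      intro v
      obtain ⟨w, rfl⟩ := g.surjective v
      rw [hx, LinearEquiv.symm_apply_apply, hgp, hθp, hgq]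
    have hx2 : ∀ v, x (x v) = x v - algebraMap F E ζ • v := by
      intro v
      obtain ⟨w, rfl⟩ := g.surjective v
      rw [hx, hx, LinearEquiv.symm_apply_apply, LinearEquiv.symm_apply_apply, hθ2, _root_.map_sub, hσ,
        AlgEquiv.commutes]
    exact theta_unique hqn hζE n1 hgen hθp hθ2 hxp hx2

end ext

end Cfsg.Agent.OCase
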