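import Cfsg.Agent.OCase.Cases3
import Cfsg.Agent.OMax.Tens33

/-!
Four-dimensional orthogonal spaces of plus type as tensor squares of a plane.
-/

set_option autoImplicit false
set_option linter.unusedSectionVars false

namespace Cfsg.Agent.OCase

open QuadraticMap Module Cfsg.Agent.Orth Cfsg.Geo

section cross

variable {F : Type*} [Field F]

/-- the alternating form of the plane -/
def cr (v w : Fin 2 → F) : F := v 0 * w 1 - v 1 * w 0

theorem cr_self (v : Fin 2 → F) : cr v v = 0 := by unfold cr; ring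

theorem exists_smul_of_cr {v w : Fin 2 → F} (hv : v ≠ 0) (h : cr v w = 0) : ∃ t : F, w = t • v := by
  unfold cr at h
  by_cases h0 : v 0 = 0
  · have h1 : v 1 ≠ 0 := by
      intro h1
      apply hv
      funext i
      fin_cases i
      · exact h0
      · exact h1
    refine ⟨w 1 / v 1, ?_⟩
    rw [h0, zero_mul, zero_sub, neg_eq_zero] at h
    have h2 : w 0 = 0 := (mul_eq_zero.1 h).resolve_left h1
    funext i
    fin_cases i
    · change w 0 = w 1 / v 1 * v 0
      rw [h0, h2, mul_zero]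
    · change w 1 = w 1 / v 1 * v 1
      rw [div_mul_cancel₀ _ h1]
  · refine ⟨w 0 / v 0, ?_⟩
    funext i
    fin_cases i
    · change w 0 = w 0 / v 0 * v 0
      rw [div_mul_cancel₀ _ h0]
    · change w 1 = w 0 / v 0 * v 1
      field_simp
      linear_combination h

theorem exists_cr_ne {v : Fin 2 → F} (hv : v ≠ 0) : ∃ w : Fin 2 → F, cr v w = 1 := by
  by_cases h0 : v 0 = 0
  · have h1 : v 1 ≠ 0 := by
      intro h1
      apply hv
      funext i
      fin_cases i
      · exact h0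
      · exact h1
    refine ⟨![-(v 1)⁻¹, 0], ?_⟩
    simp [cr, h1]
  · refine ⟨![0, (v 0)⁻¹], ?_⟩
    simp [cr, h0]

theorem eq_zero_of_cr {v : Fin 2 → F} (h : ∀ w, cr v w = 0) : v = 0 := by
  by_contra hv
  obtain ⟨w, hw⟩ := exists_cr_ne hv
  rw [h w] at hw
  exact zero_ne_one hw

/-- expansion in a basis of the plane -/
theorem cr_expand {p r : Fin 2 → F} (h : cr p r ≠ 0) (u : Fin 2 → F) :
    u = (cr u r / cr p r) • p + (cr p u / cr p r) • r := by
  unfold cr at *
  funext i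
  fin_cases i
  · simp only [Pi.add_apply, Pi.smul_apply, smul_eq_mul]
    change u 0 = _ * p 0 + _ * r 0
    rw [eq_comm, div_mul_eq_mul_div, div_mul_eq_mul_div, ← add_div, div_eq_iff h]
    ring
  · simp only [Pi.add_apply, Pi.smul_apply, smul_eq_mul]
    change u 1 = _ * p 1 + _ * r 1
    rw [eq_comm, div_mul_eq_mul_div, div_mul_eq_mul_div, ← add_div, div_eq_iff h]
    ring

end cross

section four

variable {F E : Type*} [Field F] [AddCommGroup E] [Module F E]

/-- pure tensors -/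
def bt (b : Fin 2 → Fin 2 → E) (v w : Fin 2 → F) : E :=
  (v 0 * w 0) • b 0 0 + (v 0 * w 1) • b 0 1 + (v 1 * w 0) • b 1 0 + (v 1 * w 1) • b 1 1

theorem bt_add_left (b : Fin 2 → Fin 2 → E) (v v' w : Fin 2 → F) : bt b (v + v') w = bt b v w + bt b v' w := by
  simp only [bt, Pi.add_apply, add_mul, add_smul]; abel

theorem bt_add_right (b : Fin 2 → Fin 2 → E) (v w w' : Fin 2 → F) : bt b v (w + w') = bt b v w + bt b v w' := by
  simp only [bt, Pi.add_apply, mul_add, add_smul]; abel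

theorem bt_smul_left (b : Fin 2 → Fin 2 → E) (c : F) (v w : Fin 2 → F) : bt b (c • v) w = c • bt b v w := by
  simp only [bt, Pi.smul_apply, smul_eq_mul, smul_add, smul_smul, mul_assoc]

theorem bt_smul_right (b : Fin 2 → Fin 2 → E) (c : F) (v w : Fin 2 → F) : bt b v (c • w) = c • bt b v w := by
  simp only [bt, Pi.smul_apply, smul_eq_mul, smul_add, smul_smul]
  congr 1
  · congr 1
    · congr 1
      · congr 1; ring
      · congr 1; ring
    · congr 1; ring
  · congr 1; ring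

theorem bt_zero_right (b : Fin 2 → Fin 2 → E) (v : Fin 2 → F) : bt b v 0 = 0 := by
  rw [← zero_smul F (0 : Fin 2 → F), bt_smul_right, zero_smul]

theorem bt_zero_left (b : Fin 2 → Fin 2 → E) (w : Fin 2 → F) : bt b 0 w = 0 := by
  rw [← zero_smul F (0 : Fin 2 → F), bt_smul_left, zero_smul]

/-- a hyperbolic frame in dimension four -/
structure Hyp4 (f : E → E → F) (b : Fin 2 → Fin 2 → E) (ν : F) : Prop where
  add_left : ∀ x y z, f (x + y) z = f x z + f y z
  smul_left : ∀ (c : F) x y, f (c • x) y = c * f x y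
  add_right : ∀ x y z, f x (y + z) = f x y + f x z
  smul_right : ∀ (c : F) x y, f x (c • y) = c * f x y
  ne : ν ≠ 0
  g01 : f (b 0 0) (b 1 1) = ν
  g10 : f (b 1 1) (b 0 0) = ν
  h01 : f (b 0 1) (b 1 0) = -ν
  h10 : f (b 1 0) (b 0 1) = -ν
  s0 : f (b 0 0) (b 0 0) = 0
  s1 : f (b 0 1) (b 0 1) = 0
  s2 : f (b 1 0) (b 1 0) = 0
  s3 : f (b 1 1) (b 1 1) = 0
  z1 : f (b 0 0) (b 0 1) = 0
  z2 : f (b 0 1) (b 0 0) = 0
  z3 : f (b 0 0) (b 1 0) = 0
  z4 : f (b 1 0) (b 0 0) = 0
  z5 : f (b 1 1) (b 0 1) = 0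
  z6 : f (b 0 1) (b 1 1) = 0
  z7 : f (b 1 1) (b 1 0) = 0
  z8 : f (b 1 0) (b 1 1) = 0
  span : ∀ x, ∃ c : Fin 2 → Fin 2 → F, x = c 0 0 • b 0 0 + c 0 1 • b 0 1 + c 1 0 • b 1 0 + c 1 1 • b 1 1

variable {f : E → E → F} {b : Fin 2 → Fin 2 → E} {ν : F}

theorem Hyp4.form (h : Hyp4 f b ν) (v w v' w' : Fin 2 → F) : f (bt b v w) (bt b v' w') = ν * (cr v v' * cr w w') := by
  simp only [bt, h.add_left, h.add_right, h.smul_left, h.smul_right, h.g01, h.g10, h.h01, h.h10, h.s0, h.s1, h.s2,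
    h.s3, h.z1, h.z2, h.z3, h.z4, h.z5, h.z6, h.z7, h.z8, cr]
  ring

theorem Hyp4.ne_zero (h : Hyp4 f b ν) {v w : Fin 2 → F} (hv : v ≠ 0) (hw : w ≠ 0) : bt b v w ≠ 0 := by
  intro h0
  obtain ⟨v', hv'⟩ := exists_cr_ne hv
  obtain ⟨w', hw'⟩ := exists_cr_ne hw
  have h1 := h.form v w v' w'
  rw [hv', hw', h0] at h1
  have h2 : f (0 : E) (bt b v' w') = 0 := by
    rw [← zero_smul F (0 : E), h.smul_left, zero_mul]
  rw [h2] at h1
  exact h.ne (by linear_combination -h1)

/-- singular vectors are pure tensors -/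
theorem Hyp4.pure (h : Hyp4 f b ν) (h2 : (2 : F) ≠ 0) {x : E} (hx : f x x = 0) : ∃ v w : Fin 2 → F, x = bt b v w := by
  obtain ⟨c, hc⟩ := h.span x
  have hdet : c 0 0 * c 1 1 - c 0 1 * c 1 0 = 0 := by
    rw [hc] at hx
    simp only [h.add_left, h.add_right, h.smul_left, h.smul_right, h.g01, h.g10, h.h01, h.h10, h.s0, h.s1, h.s2,
      h.s3, h.z1, h.z2, h.z3, h.z4, h.z5, h.z6, h.z7, h.z8] at hx
    have h3 : (2 * ν) * (c 0 0 * c 1 1 - c 0 1 * c 1 0) = 0 := by linear_combination hx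
    exact (mul_eq_zero.1 h3).resolve_left (mul_ne_zero h2 h.ne)
  by_cases h0 : c 0 = 0
  · refine ⟨![0, 1], c 1, ?_⟩
    rw [hc, bt]
    simp [h0]
  · obtain ⟨t, ht⟩ := exists_smul_of_cr (v := c 0) (w := c 1) h0 hdet
    refine ⟨![1, t], c 0, ?_⟩
    rw [hc, bt, ht]
    simp

/-- the image of a totally singular plane: same family or opposite family -/
theorem Hyp4.dichotomy (h : Hyp4 f b ν) (h2 : (2 : F) ≠ 0) {B : E → E} {μ : F}
    (hμ : μ ≠ 0) (hB : ∀ x y, f (B x) (B y) = μ * f x y) {v : Fin 2 → F} (hv : v ≠ 0) :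
    (∃ p z0 z1 : Fin 2 → F, B (bt b v ![1, 0]) = bt b p z0 ∧ B (bt b v ![0, 1]) = bt b p z1) ∨
    (∃ q z0 z1 : Fin 2 → F, B (bt b v ![1, 0]) = bt b z0 q ∧ B (bt b v ![0, 1]) = bt b z1 q) := by
  have hsing : ∀ w, f (B (bt b v w)) (B (bt b v w)) = 0 := fun w => by
    rw [hB, h.form, cr_self]; ring
  obtain ⟨p, q, hpq⟩ := h.pure h2 (hsing ![1, 0])
  obtain ⟨r, s, hrs⟩ := h.pure h2 (hsing ![0, 1])
  have h3 := hB (bt b v ![1, 0]) (bt b v ![0, 1])
  rw [hpq, hrs, h.form, h.form, cr_self, zero_mul, mul_zero, mul_zero] at h3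
  have h4 := (mul_eq_zero.1 h3).resolve_left h.ne
  have hne : bt b p q ≠ 0 := by
    rw [← hpq]
    intro h0
    have h5 : ∀ y, f (B (bt b v ![1, 0])) y = 0 := fun y => by
      rw [h0, ← zero_smul F (0 : E), h.smul_left, zero_mul]
    obtain ⟨v', hv'⟩ := exists_cr_ne hv
    have h6 := hB (bt b v ![1, 0]) (bt b v' ![0, 1])
    rw [h5, h.form, hv'] at h6
    have h7 : cr (![1, 0] : Fin 2 → F) ![0, 1] = 1 := by simp [cr]
    rw [h7] at h6
    exact mul_ne_zero hμ h.ne (by linear_combination -h6)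
  rcases mul_eq_zero.1 h4 with h5 | h5
  · left
    have hp : p ≠ 0 := by
      rintro rfl
      exact hne (bt_zero_left b q)
    obtain ⟨t, ht⟩ := exists_smul_of_cr hp h5
    exact ⟨p, q, t • s, hpq, by rw [hrs, ht, bt_smul_left, bt_smul_right]⟩
  · right
    have hq : q ≠ 0 := by
      rintro rfl
      exact hne (bt_zero_right b p)
    obtain ⟨t, ht⟩ := exists_smul_of_cr hq h5
    exact ⟨q, p, t • r, hpq, by rw [hrs, ht, bt_smul_left, bt_smul_right]⟩

/-- similarities preserving the families are tensor products -/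
theorem Hyp4.factor (h : Hyp4 f b ν) {B : E → E}
    (hBa : ∀ x y, B (x + y) = B x + B y) {μ : F}
    (hμ : μ ≠ 0) (hB : ∀ x y, f (B x) (B y) = μ * f x y)
    (hgood : ∀ v : Fin 2 → F, v ≠ 0 →
      ∃ p z0 z1 : Fin 2 → F, B (bt b v ![1, 0]) = bt b p z0 ∧ B (bt b v ![0, 1]) = bt b p z1) :
    ∃ c0 c1 d0 d1 : Fin 2 → F, cr c0 c1 ≠ 0 ∧ cr d0 d1 ≠ 0 ∧ B (b 0 0) = bt b c0 d0 ∧ B (b 0 1) = bt b c0 d1 ∧
      B (b 1 0) = bt b c1 d0 ∧ B (b 1 1) = bt b c1 d1 := by
  have e0 : (![1, 0] : Fin 2 → F) ≠ 0 := fun h0 => one_ne_zero (congrFun h0 0)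
  have e1 : (![0, 1] : Fin 2 → F) ≠ 0 := fun h0 => one_ne_zero (congrFun h0 1)
  have e2 : (![1, 1] : Fin 2 → F) ≠ 0 := fun h0 => one_ne_zero (congrFun h0 0)
  obtain ⟨p, z0, z1, hp0, hp1⟩ := hgood _ e0
  obtain ⟨r, y0, y1, hr0, hr1⟩ := hgood _ e1
  obtain ⟨u, x0, x1, hu0, hu1⟩ := hgood _ e2
  have b00 : bt (F := F) b ![1, 0] ![1, 0] = b 0 0 := by simp [bt]
  have b01 : bt (F := F) b ![1, 0] ![0, 1] = b 0 1 := by simp [bt]
  have b10 : bt (F := F) b ![0, 1] ![1, 0] = b 1 0 := by simp [bt]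
  have b11 : bt (F := F) b ![0, 1] ![0, 1] = b 1 1 := by simp [bt]
  have c0 : bt (F := F) b ![1, 1] ![1, 0] = b 0 0 + b 1 0 := by simp [bt]
  have c1 : bt (F := F) b ![1, 1] ![0, 1] = b 0 1 + b 1 1 := by simp [bt]
  rw [b00] at hp0
  rw [b01] at hp1
  rw [b10] at hr0
  rw [b11] at hr1
  rw [c0, hBa, hp0, hr0] at hu0
  rw [c1, hBa, hp1, hr1] at hu1
  -- independence
  have h1 := hB (b 0 0) (b 1 1)
  rw [hp0, hr1, h.form, h.g01] at h1
  have hpr : cr p r ≠ 0 := by
    intro h0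
    rw [h0, zero_mul, mul_zero] at h1
    exact mul_ne_zero hμ h.ne h1.symm
  set α := cr u r / cr p r with hα
  set γ := cr p u / cr p r with hγ
  have hu : u = α • p + γ • r := cr_expand hpr u
  have key : ∀ z y x : Fin 2 → F, bt b p z + bt b r y = bt b u x → z = α • x ∧ y = γ • x := by
    intro z y x hzy
    rw [hu, bt_add_left, bt_smul_left, bt_smul_left, ← bt_smul_right, ← bt_smul_right] at hzy
    constructor
    · have h3 : ∀ w, cr (z - α • x) w = 0 := by
        intro w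
        have h4 := congrArg (fun X => f X (bt b r w)) hzy
        simp only [h.add_left, h.form, cr_self, zero_mul, mul_zero, add_zero] at h4
        have h5 : (ν * cr p r) * cr (z - α • x) w = 0 := by
          have h6 : cr (z - α • x) w = cr z w - cr (α • x) w := by
            simp only [cr, Pi.sub_apply]; ring
          rw [h6]
          linear_combination h4
        exact (mul_eq_zero.1 h5).resolve_left (mul_ne_zero h.ne hpr)
      exact sub_eq_zero.1 (eq_zero_of_cr h3)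
    · have h3 : ∀ w, cr (y - γ • x) w = 0 := by
        intro w
        have h4 := congrArg (fun X => f X (bt b p w)) hzy
        simp only [h.add_left, h.form, cr_self, zero_mul, mul_zero, zero_add] at h4
        have h7 : cr r p = - cr p r := by unfold cr; ring
        rw [h7] at h4
        have h5 : (ν * cr p r) * cr (y - γ • x) w = 0 := by
          have h6 : cr (y - γ • x) w = cr y w - cr (γ • x) w := by
            simp only [cr, Pi.sub_apply]; ring
          rw [h6]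
          linear_combination -h4
        exact (mul_eq_zero.1 h5).resolve_left (mul_ne_zero h.ne hpr)
      exact sub_eq_zero.1 (eq_zero_of_cr h3)
  obtain ⟨hz0, hy0⟩ := key _ _ _ hu0
  obtain ⟨hz1, hy1⟩ := key _ _ _ hu1
  rw [hz0, bt_smul_right, ← bt_smul_left] at hp0
  rw [hz1, bt_smul_right, ← bt_smul_left] at hp1
  rw [hy0, bt_smul_right, ← bt_smul_left] at hr0
  rw [hy1, bt_smul_right, ← bt_smul_left] at hr1
  have h2 := hB (b 0 0) (b 1 1)
  rw [hp0, hr1, h.form, h.g01] at h2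
  have h3 : cr (α • p) (γ • r) * cr x0 x1 ≠ 0 := by
    intro h0
    rw [h0, mul_zero] at h2
    exact mul_ne_zero hμ h.ne h2.symm
  exact ⟨α • p, γ • r, x0, x1, left_ne_zero_of_mul h3, right_ne_zero_of_mul h3, hp0, hp1, hr0, hr1⟩

end four

end Cfsg.Agent.OCase
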