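import Cfsg.Agent.OCase.Cases3
import Cfsg.Agent.Asch.Linear

/-!
Maximal subgroups of `Ω₁₀^±(q)`.
-/

set_option autoImplicit false
set_option linter.unusedSectionVars false

namespace Cfsg.Agent.OCase

open QuadraticMap Module Cfsg.Agent.Orth Cfsg.Geo

theorem pow_ne_ten {k t : ℕ} (ht : 2 ≤ t) : k ^ t ≠ 10 := by
  intro h
  have hk : k < 4 := by
    by_contra hcon
    have : 4 ^ 2 ≤ k ^ t := (Nat.pow_le_pow_left (by omega) 2).trans (Nat.pow_le_pow_right (by omega) ht)
    omega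
  rcases Nat.lt_or_ge k 2 with h1 | h1
  · interval_cases k
    · rw [zero_pow (by omega)] at h; omega
    · rw [one_pow] at h; omega
  · have ht4 : t < 4 := by
      by_contra hcon
      have : 2 ^ 4 ≤ k ^ t := (Nat.pow_le_pow_left h1 4).trans (Nat.pow_le_pow_right (by omega) (by omega))
      omega
    interval_cases k <;> interval_cases t <;> omega

theorem pow_ne_twelve {k t : ℕ} (ht : 2 ≤ t) : k ^ t ≠ 12 := by
  intro h
  have hk : k < 4 := by
    by_contra hcon
    have : 4 ^ 2 ≤ k ^ t := (Nat.pow_le_pow_left (by omega) 2).trans (Nat.pow_le_pow_right (by omega) ht)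
    omega
  rcases Nat.lt_or_ge k 2 with h1 | h1
  · interval_cases k
    · rw [zero_pow (by omega)] at h; omega
    · rw [one_pow] at h; omega
  · have ht4 : t < 4 := by
      by_contra hcon
      have : 2 ^ 4 ≤ k ^ t := (Nat.pow_le_pow_left h1 4).trans (Nat.pow_le_pow_right (by omega) (by omega))
      omega
    interval_cases k <;> interval_cases t <;> omega

variable {F : Type*} [Field F] [Fintype F] {Q : QuadraticForm F (Fin 10 → F)}
  {H : Subgroup (Matrix.GeneralLinearGroup (Fin 10) F)}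

theorem ext_ten (c : Ctx Q H) {r : ℕ} (hr : r.Prime) {K : Subalgebra F (Matrix (Fin 10) (Fin 10) F)}
    (hK : IsFieldSubalgebra r K) (hsa : IsSelfAdjointFor (polar ⇑Q) K) (hH : H = subalgebraNormalizer K ⊓ omegaGL ⇑Q) :
    (Odd (Fintype.card F) ∧ ∃ K : Subalgebra F (Matrix (Fin 10) (Fin 10) F), IsFieldSubalgebra 2 K ∧
      IsSelfAdjointFor (polar ⇑Q) K ∧ H = subalgebraNormalizer K ⊓ omegaGL ⇑Q) ∨
    (IsPlus Q ∧ ∃ W : Submodule F (Fin 10 → F), W ≠ ⊥ ∧ TS Q W ∧ finrank F W = 5 ∧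
      H = subspaceStabilizer W ⊓ omegaGL ⇑Q) ∨
    (¬ IsPlus Q ∧ ∃ K : Subalgebra F (Matrix (Fin 10) (Fin 10) F), IsFieldSubalgebra 2 K ∧
      IsAdjointClosedFor (polar ⇑Q) K ∧ ¬ IsSelfAdjointFor (polar ⇑Q) K ∧
      (∀ k ∈ K, ∃ c : F, ∀ v : Fin 10 → F, Q (Matrix.mulVec k v) = c * Q v) ∧
      H = subalgebraNormalizer K ⊓ omegaGL ⇑Q) := by
  have hd := AschCases.dvd_card_of_isFieldSubalgebra hK
  rw [Fintype.card_fin] at hd
  have hr' : r = 2 ∨ r = 5 := by
    have h1 : r ≤ 10 := Nat.le_of_dvd (by norm_num) hd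
    have h2 := hr.two_le
    interval_cases r
    · exact Or.inl rfl
    · omega
    · omega
    · exact Or.inr rfl
    · omega
    · omega
    · omega
    · omega
    · exact absurd hr (by norm_num)
  rcases hr' with rfl | rfl
  · rcases Ctx.two_ne_zero_or F with h2 | h2
    · exact Or.inl ⟨h2, K, hK, hsa, hH⟩
    · have := even_of_selfAdjoint (k := 5) c.hQ (by simp) h2 hK hsa (by simp)
      exact absurd this (by decide)
  · rcases dichotomy_selfAdjoint c.hQ (by simp) (by decide) hK hsa (by simp) with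
      ⟨D, hD, hts, hle⟩ | ⟨K', h1, h2, h3, h4, hle⟩
    · have hf : finrank F (D 0) = 5 := hD.finrank_eq 0
      refine Or.inr (Or.inl ⟨⟨D 0, hts 0, by rw [hf, finrank_fin_fun]⟩, D 0, Ctx.ne_bot_of_finrank (by omega), hts 0, hf, ?_⟩)
      refine c.of_le_stab hH ?_ (Ctx.ne_bot_of_finrank (by omega)) (Ctx.ne_top_of_finrank (by omega))
      exact (le_inf hle inf_le_right).trans (ts_pair_le c.hQ (by simp) (by simp) (by decide) hD hts)
    · refine Or.inr (Or.inr ⟨not_isPlus_of_similarity c.hQ (m := 5) (by simp) (by decide) h1 h4, K', h1, h2, h3, h4, ?_⟩)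
      exact c.of_le hH hle (AschCases.orthMember_not_le' c.hQ c.card
        (Or.inr (Or.inr (Or.inr (Or.inr (Or.inr (Or.inr (Or.inl ⟨K', h1, h2, h3, h4, rfl⟩))))))))

end Cfsg.Agent.OCase
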