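import Cfsg.Agent.OCase.Cases3

/-!
Maximal subgroups of `Ω₈⁻(q)`.
-/

set_option autoImplicit false
set_option linter.unusedSectionVars false

namespace Cfsg.Agent.OCase

open QuadraticMap Module Cfsg.Agent.Orth Cfsg.Geo

variable {F : Type*} [Field F] [Fintype F] {Q : QuadraticForm F (Fin 8 → F)}
  {H : Subgroup (Matrix.GeneralLinearGroup (Fin 8) F)}

theorem row5826 (c : Ctx Q H) (hmin : ¬ IsPlus Q) : G8m ⇑Q H := by
  rcases c.member (fun a ha h4 => by
    intro h8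
    have : 4 * 4 ≤ a * a := Nat.mul_le_mul h4 h4
    omega) with ⟨M, hM, hH⟩ | hres
  swap
  · exact Or.inr (Or.inr (Or.inr (Or.inr (Or.inr (Or.inr (Or.inr (Or.inr hres)))))))
  have hc8 : Fintype.card (Fin 8) = 2 * 4 := by simp
  rcases hM with ⟨W, h1, h2, rfl⟩ | ⟨W, h1, h2, h3, rfl⟩ | ⟨v, h1, h2, rfl⟩ | ⟨t, k, D, h1, h2, rfl⟩ |
    ⟨k, D, h1, h2, h3, rfl⟩ | ⟨r, K, h1, h2, h3, h4, rfl⟩ | ⟨K, h1, h2, h3, h4, rfl⟩ |
    ⟨n₁, n₂, e, P, f₁, f₂, h1, h2, h3, h4, h5, h6, rfl⟩ | ⟨n₁, n₂, e, P, f₁, f₂, h1, h2, h3, h4, h5, h6, rfl⟩ |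
    ⟨F₀, r, P, ζ, h1, h2, h3, h4, rfl⟩ | ⟨R, p, k, h1, h2, h3, h4, h5, h6, h7, h8, h9, h10, rfl⟩ |
    ⟨k, t, e, P, f₁, h1, h2, h3, h4, h5, h6, rfl⟩ | ⟨k, t, e, P, f₁, h1, h2, h3, h4, h5, rfl⟩
  · -- 1a
    exact Or.inl ⟨W, h1, h2, hH⟩
  · -- 1b
    rcases c.class1b h1 h2 h3 hH with ⟨ho, W, g0, g1, g2, -, g3, g4⟩ | h | h | h | ⟨W, g1, g2, g3, g4, g5⟩
    · exact Or.inr (Or.inl ⟨ho, W, g0, g1, g2, g3, g4⟩)
    · exact Or.inr (Or.inr (Or.inl h))
    · exact Or.inr (Or.inr (Or.inr (Or.inl h)))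
    · exact Or.inr (Or.inr (Or.inr (Or.inr (Or.inr (Or.inl h)))))
    · exact Or.inr (Or.inr (Or.inr (Or.inr (Or.inl ⟨W, by omega, g4, g5⟩))))
  · exact Or.inr (Or.inr (Or.inr (Or.inr (Or.inr (Or.inl ⟨h1, v, h2, hH⟩)))))
  · -- 2a
    exfalso
    have hn := Ctx.n_eq h2
    have ht := Ctx.t_ne_zero h2
    have hk : k ∣ 8 := ⟨t, by rw [hn]; ring⟩
    have hk8 : k ≤ 8 := Nat.le_of_dvd (by norm_num) hk
    interval_cases k
    · omega
    · have h3 : (2 : F) ≠ 0 := two_ne_zero_of_odd (Ctx.odd_of_one h2 odd_one)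
      apply hmin
      rw [isPlus_iff_of_decomp_even h3 c.hQ h2 ⟨4, by omega⟩ hc8]
      exact ⟨1, by norm_num⟩
    · exact hmin ((Ctx.isPlus_iff_even h2 (by decide) ⟨0, by omega⟩).2 (Or.inr ⟨2, by omega⟩))
    · omega
    · exact hmin ((Ctx.isPlus_iff_even h2 (by decide) ⟨0, by omega⟩).2 (Or.inr ⟨1, by omega⟩))
    all_goals omega
  · -- 2b
    exfalso
    rw [Fintype.card_fin] at h1
    exact hmin ⟨D 0, h3 0, by rw [h2.finrank_eq, finrank_fin_fun, h1]⟩
  · -- 3a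
    have hd := AschCases.dvd_card_of_isFieldSubalgebra h3
    rw [Fintype.card_fin] at hd
    have hr : r ∣ 2 ^ 3 := by norm_num; exact hd
    have hr2 := (Nat.prime_dvd_prime_iff_eq h1 Nat.prime_two).1 (h1.dvd_of_dvd_pow hr)
    subst hr2
    exact Or.inr (Or.inr (Or.inr (Or.inr (Or.inr (Or.inr (Or.inl ⟨K, h3, hH⟩))))))
  · -- 3b
    exact Or.inr (Or.inr (Or.inr (Or.inr (Or.inr (Or.inr (Or.inl ⟨K, h1, hH⟩))))))
  · -- 4a
    exfalso
    have hce := Fintype.card_congr e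
    rw [Fintype.card_fin, Fintype.card_prod, Fintype.card_fin, Fintype.card_fin] at hce
    have : 3 * 4 ≤ n₁ * n₂ := Nat.mul_le_mul h2 (by omega)
    omega
  · -- 4b
    exfalso
    have hce := Fintype.card_congr e
    rw [Fintype.card_fin, Fintype.card_prod, Fintype.card_fin, Fintype.card_fin] at hce
    have hn₁ : n₁ = 2 := by
      by_contra hcon
      have : 3 * 4 ≤ n₁ * n₂ := Nat.mul_le_mul (by omega) (by omega)
      omega
    subst hn₁
    exact hmin (isPlus_of_tensor (by norm_num) h6 (by rw [Fintype.card_fin, hce]))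
  · -- 5
    rcases h1.eq_two_or_odd' with rfl | hr
    · exact absurd (isPlus_of_rational c.hQ h2 h3 h4 hc8 (by norm_num)) hmin
    · exact Or.inr (Or.inr (Or.inr (Or.inr (Or.inr (Or.inr (Or.inr (Or.inl ⟨F₀, r, P, ζ, h1, hr, h2, h3, h4, hH⟩)))))))
  · -- 6
    exfalso
    have hk : k = 3 := by
      rw [Fintype.card_fin] at h10
      have : 2 ^ k = 2 ^ 3 := by omega
      exact Nat.pow_right_injective le_rfl this
    subst hk
    have ho : Odd (Fintype.card F) := by rw [h6]; exact h5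
    exact hmin (isPlus_of_extraspecial c.hQ (two_ne_zero_of_odd ho) h2 h3 (by norm_num) h7 h8 (by simp) h9)
  · -- 7a
    exfalso
    have hce := Fintype.card_congr e
    rw [Fintype.card_fin, Fintype.card_fun, Fintype.card_fin, Fintype.card_fin] at hce
    have : 3 ^ 2 ≤ k ^ t := (Nat.pow_le_pow_left h2 2).trans (Nat.pow_le_pow_right (by omega) h3)
    omega
  · -- 7b
    exfalso
    have hce := Fintype.card_congr e
    rw [Fintype.card_fin, Fintype.card_fun, Fintype.card_fin, Fintype.card_fin] at hce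
    have hk2 : k < 3 := by
      by_contra hcon
      have : 3 ^ 2 ≤ k ^ t := (Nat.pow_le_pow_left (by omega) 2).trans (Nat.pow_le_pow_right (by omega) h1)
      omega
    interval_cases k
    · rw [zero_pow (by omega)] at hce; omega
    · rw [one_pow] at hce; omega
    · have ht : t = 3 := by
        have : 2 ^ t = 2 ^ 3 := by omega
        exact Nat.pow_right_injective le_rfl this
      subst ht
      exact hmin (isPlus_of_tensor_three h3 h4 h5)

end Cfsg.Agent.OCase
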