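import Cfsg.Agent.OCase.Row10

/-!
Maximal subgroups of `Ω₁₀⁺(q)`.
-/

set_option autoImplicit false
set_option linter.unusedSectionVars false

namespace Cfsg.Agent.OCase

open QuadraticMap Module Cfsg.Agent.Orth Cfsg.Geo

variable {F : Type*} [Field F] [Fintype F] {Q : QuadraticForm F (Fin 10 → F)}
  {H : Subgroup (Matrix.GeneralLinearGroup (Fin 10) F)}

theorem isSquare_neg_one_pow_five {F : Type*} [Field F] [Fintype F] :
    IsSquare ((-1 : F) ^ 5) ↔ Fintype.card F % 4 ≠ 3 := by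
  rw [← FiniteField.isSquare_neg_one_iff]
  norm_num

theorem row5847 (c : Ctx Q H) (hp : IsPlus Q) : G10p ⇑Q H := by
  unfold G10p
  have hc10 : Fintype.card (Fin 10) = 2 * 5 := by simp
  -- totally singular subspaces
  have key1 : ∀ W : Submodule F (Fin 10 → F), W ≠ ⊥ → TS Q W → H = subspaceStabilizer W ⊓ omegaGL ⇑Q →
      ∃ W : Submodule F (Fin 10 → F), W ≠ ⊥ ∧ IsTotallySingularQuad ⇑Q W ∧ finrank F W ≠ 4 ∧
        H = subspaceStabilizer W ⊓ omegaGL ⇑Q := by
    intro W h0 hW hH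
    by_cases h4 : finrank F W = 4
    · obtain ⟨U, g0, g1, g2, g3⟩ := c.ts_up hp hW (by omega) hH
      exact ⟨U, g0, g1, by omega, g3⟩
    · exact ⟨W, h0, hW, h4, hH⟩
  -- members of dimension five
  have key5 : ∀ W : Submodule F (Fin 10 → F), Odd (Fintype.card F) → IsNondegenerateOn (polar ⇑Q) W → finrank F W = 5 →
      H = subspaceStabilizer W ⊓ omegaGL ⇑Q →
      (Fintype.card F % 4 = 1 ∧ ∃ D : Fin 2 → Submodule F (Fin 10 → F), IsOrthogonalMDecomposition ⇑Q 5 D ∧
        H = decompositionStabilizer D ⊓ omegaGL ⇑Q) ∨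
      (Fintype.card F % 4 = 3 ∧ ∃ D : Fin 2 → Submodule F (Fin 10 → F), IsNondegenerateMDecomposition (polar ⇑Q) 5 D ∧
        ¬ AreIsometricFor ⇑Q (D 0) (D 1) ∧ H = decompositionStabilizer D ⊓ omegaGL ⇑Q) := by
    intro W ho hW hd hH
    rcases c.half_odd (m := 5) (by norm_num) (by decide) ho hW hd hH with ⟨h1, h2⟩ | ⟨h1, h2⟩
    · exact Or.inl ⟨h1.1 hp, h2⟩
    · exact Or.inr ⟨h1.1 hp, h2⟩
  rcases c.member (fun a ha h4 => by
    intro h8
    have : 4 * 4 ≤ a * a := Nat.mul_le_mul h4 h4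
    omega) with ⟨M, hM, hH⟩ | hres
  swap
  · iterate 12 refine Or.inr ?_
    exact hres
  rcases hM with ⟨W, h1, h2, rfl⟩ | ⟨W, h1, h2, h3, rfl⟩ | ⟨v, h1, h2, rfl⟩ | ⟨t, k, D, h1, h2, rfl⟩ |
    ⟨k, D, h1, h2, h3, rfl⟩ | ⟨r, K, h1, h2, h3, h4, rfl⟩ | ⟨K, h1, h2, h3, h4, rfl⟩ |
    ⟨n₁, n₂, e, P, f₁, f₂, h1, h2, h3, h4, h5, h6, rfl⟩ | ⟨n₁, n₂, e, P, f₁, f₂, h1, h2, h3, h4, h5, h6, rfl⟩ |
    ⟨F₀, r, P, ζ, h1, h2, h3, h4, rfl⟩ | ⟨R, p, k, h1, h2, h3, h4, h5, h6, h7, h8, h9, h10, rfl⟩ |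
    ⟨k, t, e, P, f₁, h1, h2, h3, h4, h5, h6, rfl⟩ | ⟨k, t, e, P, f₁, h1, h2, h3, h4, h5, rfl⟩
  · -- 1a
    exact Or.inl (key1 W h1 h2 hH)
  · -- 1b
    rcases c.class1b h1 h2 h3 hH with ⟨ho, W, g0, g1, g2, g5, g3, g4⟩ | h | h | h | ⟨W, g1, g2, g3, g4, g5⟩
    · by_cases hd : finrank F W = 5
      · rcases key5 W ho g3 hd g4 with h | h
        · iterate 8 refine Or.inr ?_
          exact Or.inl h
        · iterate 9 refine Or.inr ?_
          exact Or.inl h
      · exact Or.inr (Or.inl ⟨ho, W, g0, g1, g2, by omega, g3, g4⟩)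
    · exact Or.inr (Or.inr (Or.inl h))
    · exact Or.inr (Or.inr (Or.inr (Or.inl h)))
    · exact Or.inr (Or.inr (Or.inr (Or.inr (Or.inr (Or.inl h)))))
    · have : finrank F W = 4 := by
        obtain ⟨s, hs⟩ := g1
        omega
      exact Or.inr (Or.inr (Or.inr (Or.inr (Or.inl ⟨W, this, g4, g5⟩))))
  · exact Or.inr (Or.inr (Or.inr (Or.inr (Or.inr (Or.inl ⟨h1, v, h2, hH⟩)))))
  · -- 2a
    have hn := Ctx.n_eq h2
    have ht := Ctx.t_ne_zero h2
    have hk : k ∣ 10 := ⟨t, by rw [hn]; ring⟩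
    have hk8 : k ≤ 10 := Nat.le_of_dvd (by norm_num) hk
    interval_cases k
    · omega
    · -- k = 1
      have ho := Ctx.odd_of_one h2 odd_one
      obtain rfl : t = 10 := by omega
      have hsq := (isPlus_iff_of_decomp_even (two_ne_zero_of_odd ho) c.hQ h2 (by decide) hc10).1 hp
      rw [isSquare_neg_one_pow_five] at hsq
      iterate 6 refine Or.inr ?_
      refine Or.inl ⟨⟨_, h1.resolve_left (by norm_num), rfl, ?_⟩, D, h2, hH⟩
      have := Ctx.mod_four_of_odd ho
      omega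
    · -- k = 2
      obtain rfl : t = 5 := by omega
      have hpp : ∀ i, IsPlusTypeOn ⇑Q (D i) := fun i =>
        ((Ctx.isPlus_iff_even h2 (by decide) i).1 hp).resolve_right (by decide)
      rcases c.plus_plane h2 hpp hH with h | ⟨hq, D', g1, g2⟩ | ⟨hq, F₀, P, g1, g2, g3⟩ | ⟨hq, W, g1, g2, g3⟩ |
        ⟨hq, s, g1, g2, g3⟩
      · iterate 7 refine Or.inr ?_
        exact Or.inl ⟨h, D, h2, hH⟩
      · iterate 6 refine Or.inr ?_
        exact Or.inl ⟨⟨5, by norm_num, hq, by norm_num⟩, D', g1, g2⟩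
      · iterate 11 refine Or.inr ?_
        exact Or.inl ⟨F₀, 2, P, 1, Nat.prime_two, g1, one_ne_zero, g2, g3⟩
      · rcases key5 W (by rw [hq]; decide) g2 g1 g3 with h | h
        · iterate 8 refine Or.inr ?_
          exact Or.inl h
        · iterate 9 refine Or.inr ?_
          exact Or.inl h
      · have h22 : (2 : F) = 0 := two_eq_zero_of_card_two hq
        refine Or.inr (Or.inr (Or.inr (Or.inr (Or.inr (Or.inl ⟨by rw [hq]; decide, s, ?_, g3⟩)))))
        rw [g2]
        have : ((5 : ℕ) : F) = 2 * 2 + 1 := by norm_num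
        rw [this, h22]
        norm_num
    · omega
    · omega
    · -- k = 5
      have ho := Ctx.odd_of_one h2 (by decide)
      obtain rfl : t = 2 := by omega
      have hsq := (isPlus_iff_of_decomp_even (two_ne_zero_of_odd ho) c.hQ h2 (by decide) hc10).1 hp
      rw [isSquare_neg_one_pow_five] at hsq
      iterate 8 refine Or.inr ?_
      refine Or.inl ⟨?_, D, h2, hH⟩
      have := Ctx.mod_four_of_odd ho
      omega
    all_goals omega
  · -- 2b
    have hk : k = 5 := by rw [Fintype.card_fin] at h1; omega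
    subst hk
    refine Or.inl (key1 (D 0) (Ctx.ne_bot_of_finrank (by rw [h2.finrank_eq]; norm_num)) (h3 0) ?_)
    refine c.of_le_stab hH (ts_pair_le c.hQ (by simp) (by simp) (by decide) h2 h3)
      (Ctx.ne_bot_of_finrank (by rw [h2.finrank_eq]; norm_num)) (Ctx.ne_top_of_finrank (by rw [h2.finrank_eq]; norm_num))
  · -- 3a
    rcases ext_ten c h1 h3 h4 hH with h | ⟨-, W, g0, g1, -, g3⟩ | ⟨h, -⟩
    · iterate 10 refine Or.inr ?_
      exact Or.inl h
    · exact Or.inl (key1 W g0 g1 g3)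
    · exact absurd hp h
  · -- 3b
    exact absurd hp (not_isPlus_of_similarity c.hQ (m := 5) (by simp) (by decide) h1 h4)
  · -- 4a
    exfalso
    have hce := Fintype.card_congr e
    rw [Fintype.card_fin, Fintype.card_prod, Fintype.card_fin, Fintype.card_fin] at hce
    have : 3 * 4 ≤ n₁ * n₂ := Nat.mul_le_mul h2 (by omega)
    omega
  · -- 4b
    exfalso
    have hce := Fintype.card_congr e
    rw [Fintype.card_fin, Fintype.card_prod, Fintype.card_fin, Fintype.card_fin] at hce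
    have hn₁ : n₁ = 2 := by
      by_contra hcon
      have : 3 * 4 ≤ n₁ * n₂ := Nat.mul_le_mul (by omega) (by omega)
      omega
    subst hn₁
    obtain rfl : n₂ = 5 := by omega
    have := Asch.even_card_of_isSymplecticForm h4
    rw [Fintype.card_fin] at this
    exact absurd this (by decide)
  · -- 5
    iterate 11 refine Or.inr ?_
    exact Or.inl ⟨F₀, r, P, ζ, h1, h2, h3, h4, hH⟩
  · -- 6
    exfalso
    rw [Fintype.card_fin] at h10
    have hk : k < 4 := by
      by_contra hcon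
      have : 2 ^ 4 ≤ 2 ^ k := Nat.pow_le_pow_right (by norm_num) (by omega)
      omega
    interval_cases k <;> omega
  · -- 7a
    exfalso
    have hce := Fintype.card_congr e
    rw [Fintype.card_fin, Fintype.card_fun, Fintype.card_fin, Fintype.card_fin] at hce
    exact pow_ne_ten h3 hce.symm
  · -- 7b
    exfalso
    have hce := Fintype.card_congr e
    rw [Fintype.card_fin, Fintype.card_fun, Fintype.card_fin, Fintype.card_fin] at hce
    exact pow_ne_ten h1 hce.symm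

end Cfsg.Agent.OCase
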