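import Cfsg.Agent.OCase.Row5847

/-!
Maximal subgroups of `Ω₁₀⁻(q)`.
-/

set_option autoImplicit false
set_option linter.unusedSectionVars false

namespace Cfsg.Agent.OCase

open QuadraticMap Module Cfsg.Agent.Orth Cfsg.Geo

variable {F : Type*} [Field F] [Fintype F] {Q : QuadraticForm F (Fin 10 → F)}
  {H : Subgroup (Matrix.GeneralLinearGroup (Fin 10) F)}

theorem row5850 (c : Ctx Q H) (hmin : ¬ IsPlus Q) : G10m ⇑Q H := by
  unfold G10m
  have hc10 : Fintype.card (Fin 10) = 2 * 5 := by simp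
  -- members of dimension five
  have key5 : ∀ W : Submodule F (Fin 10 → F), Odd (Fintype.card F) → IsNondegenerateOn (polar ⇑Q) W → finrank F W = 5 →
      H = subspaceStabilizer W ⊓ omegaGL ⇑Q →
      (Fintype.card F % 4 = 3 ∧ ∃ D : Fin 2 → Submodule F (Fin 10 → F), IsOrthogonalMDecomposition ⇑Q 5 D ∧
        H = decompositionStabilizer D ⊓ omegaGL ⇑Q) ∨
      (Fintype.card F % 4 = 1 ∧ ∃ D : Fin 2 → Submodule F (Fin 10 → F), IsNondegenerateMDecomposition (polar ⇑Q) 5 D ∧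
        ¬ AreIsometricFor ⇑Q (D 0) (D 1) ∧ H = decompositionStabilizer D ⊓ omegaGL ⇑Q) := by
    intro W ho hW hd hH
    rcases c.half_odd (m := 5) (by norm_num) (by decide) ho hW hd hH with ⟨h1, h2⟩ | ⟨h1, h2⟩
    · exact Or.inl ⟨(Ctx.mod_four_of_odd ho).resolve_left fun h => hmin (h1.2 h), h2⟩
    · exact Or.inr ⟨(Ctx.mod_four_of_odd ho).resolve_right fun h => hmin (h1.2 h), h2⟩
  rcases c.member (fun a ha h4 => by
    intro h8
    have : 4 * 4 ≤ a * a := Nat.mul_le_mul h4 h4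
    omega) with ⟨M, hM, hH⟩ | hres
  swap
  · iterate 13 refine Or.inr ?_
    exact hres
  rcases hM with ⟨W, h1, h2, rfl⟩ | ⟨W, h1, h2, h3, rfl⟩ | ⟨v, h1, h2, rfl⟩ | ⟨t, k, D, h1, h2, rfl⟩ |
    ⟨k, D, h1, h2, h3, rfl⟩ | ⟨r, K, h1, h2, h3, h4, rfl⟩ | ⟨K, h1, h2, h3, h4, rfl⟩ |
    ⟨n₁, n₂, e, P, f₁, f₂, h1, h2, h3, h4, h5, h6, rfl⟩ | ⟨n₁, n₂, e, P, f₁, f₂, h1, h2, h3, h4, h5, h6, rfl⟩ |
    ⟨F₀, r, P, ζ, h1, h2, h3, h4, rfl⟩ | ⟨R, p, k, h1, h2, h3, h4, h5, h6, h7, h8, h9, h10, rfl⟩ |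
    ⟨k, t, e, P, f₁, h1, h2, h3, h4, h5, h6, rfl⟩ | ⟨k, t, e, P, f₁, h1, h2, h3, h4, h5, rfl⟩
  · -- 1a
    exact Or.inl ⟨W, h1, h2, hH⟩
  · -- 1b
    rcases c.class1b h1 h2 h3 hH with ⟨ho, W, g0, g1, g2, g5, g3, g4⟩ | h | h | h | ⟨W, g1, g2, g3, g4, g5⟩
    · by_cases hd : finrank F W = 5
      · rcases key5 W ho g3 hd g4 with h | h
        · iterate 8 refine Or.inr ?_
          exact Or.inl h
        · iterate 9 refine Or.inr ?_
          exact Or.inl h
      · exact Or.inr (Or.inl ⟨ho, W, g0, g1, g2, by omega, g3, g4⟩)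
    · exact Or.inr (Or.inr (Or.inl h))
    · exact Or.inr (Or.inr (Or.inr (Or.inl h)))
    · exact Or.inr (Or.inr (Or.inr (Or.inr (Or.inr (Or.inl h)))))
    · have : finrank F W = 4 := by
        obtain ⟨s, hs⟩ := g1
        omega
      exact Or.inr (Or.inr (Or.inr (Or.inr (Or.inl ⟨W, this, g4, g5⟩))))
  · exact Or.inr (Or.inr (Or.inr (Or.inr (Or.inr (Or.inl ⟨h1, v, h2, hH⟩)))))
  · -- 2a
    have hn := Ctx.n_eq h2
    have ht := Ctx.t_ne_zero h2
    have hk : k ∣ 10 := ⟨t, by rw [hn]; ring⟩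
    have hk8 : k ≤ 10 := Nat.le_of_dvd (by norm_num) hk
    interval_cases k
    · omega
    · -- k = 1
      have ho := Ctx.odd_of_one h2 odd_one
      obtain rfl : t = 10 := by omega
      have hsq := fun h => hmin ((isPlus_iff_of_decomp_even (two_ne_zero_of_odd ho) c.hQ h2 (by decide) hc10).2 h)
      rw [isSquare_neg_one_pow_five] at hsq
      iterate 6 refine Or.inr ?_
      refine Or.inl ⟨⟨_, h1.resolve_left (by norm_num), rfl, by_contra hsq⟩, D, h2, hH⟩
    · -- k = 2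
      obtain rfl : t = 5 := by omega
      have hpp : ∀ i, ¬ IsPlusTypeOn ⇑Q (D i) := fun i h =>
        hmin ((Ctx.isPlus_iff_even h2 (by decide) i).2 (Or.inl h))
      by_cases hq : Fintype.card F = 3
      · obtain ⟨D', g1, g2⟩ := c.minus_plane_three hq h2 hpp hH
        iterate 6 refine Or.inr ?_
        exact Or.inl ⟨⟨3, by norm_num, hq, by norm_num⟩, D', g1, g2⟩
      · iterate 7 refine Or.inr ?_
        exact Or.inl ⟨hq, D, h2, hH⟩
    · omega
    · omega
    · -- k = 5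
      have ho := Ctx.odd_of_one h2 (by decide)
      obtain rfl : t = 2 := by omega
      have hsq := fun h => hmin ((isPlus_iff_of_decomp_even (two_ne_zero_of_odd ho) c.hQ h2 (by decide) hc10).2 h)
      rw [isSquare_neg_one_pow_five] at hsq
      iterate 8 refine Or.inr ?_
      exact Or.inl ⟨by_contra hsq, D, h2, hH⟩
    all_goals omega
  · -- 2b
    exfalso
    rw [Fintype.card_fin] at h1
    exact hmin ⟨D 0, h3 0, by rw [h2.finrank_eq, finrank_fin_fun, h1]⟩
  · -- 3a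
    rcases ext_ten c h1 h3 h4 hH with h | ⟨h, -⟩ | ⟨-, h⟩
    · iterate 10 refine Or.inr ?_
      exact Or.inl h
    · exact absurd h hmin
    · iterate 11 refine Or.inr ?_
      exact Or.inl h
  · -- 3b
    iterate 11 refine Or.inr ?_
    exact Or.inl ⟨K, h1, h2, h3, h4, hH⟩
  · -- 4a
    exfalso
    have hce := Fintype.card_congr e
    rw [Fintype.card_fin, Fintype.card_prod, Fintype.card_fin, Fintype.card_fin] at hce
    have : 3 * 4 ≤ n₁ * n₂ := Nat.mul_le_mul h2 (by omega)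
    omega
  · -- 4b
    exfalso
    have hce := Fintype.card_congr e
    rw [Fintype.card_fin, Fintype.card_prod, Fintype.card_fin, Fintype.card_fin] at hce
    have hn₁ : n₁ = 2 := by
      by_contra hcon
      have : 3 * 4 ≤ n₁ * n₂ := Nat.mul_le_mul (by omega) (by omega)
      omega
    subst hn₁
    obtain rfl : n₂ = 5 := by omega
    have := Asch.even_card_of_isSymplecticForm h4
    rw [Fintype.card_fin] at this
    exact absurd this (by decide)
  · -- 5
    rcases h1.eq_two_or_odd' with rfl | hr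
    · exact absurd (isPlus_of_rational c.hQ h2 h3 h4 hc10 (by norm_num)) hmin
    · iterate 12 refine Or.inr ?_
      exact Or.inl ⟨F₀, r, P, ζ, h1, hr, h2, h3, h4, hH⟩
  · -- 6
    exfalso
    rw [Fintype.card_fin] at h10
    have hk : k < 4 := by
      by_contra hcon
      have : 2 ^ 4 ≤ 2 ^ k := Nat.pow_le_pow_right (by norm_num) (by omega)
      omega
    interval_cases k <;> omega
  · -- 7a
    exfalso
    have hce := Fintype.card_congr e
    rw [Fintype.card_fin, Fintype.card_fun, Fintype.card_fin, Fintype.card_fin] at hce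
    exact pow_ne_ten h3 hce.symm
  · -- 7b
    exfalso
    have hce := Fintype.card_congr e
    rw [Fintype.card_fin, Fintype.card_fun, Fintype.card_fin, Fintype.card_fin] at hce
    exact pow_ne_ten h1 hce.symm

end Cfsg.Agent.OCase
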