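import Cfsg.Agent.OCase.Tens26
import Cfsg.Agent.AschCases.TensForm

/-!
The type of a tensor product of symmetric forms.
-/

set_option autoImplicit false
set_option linter.unusedSectionVars false

namespace Cfsg.Agent.OCase

open QuadraticMap Module Cfsg.Agent.Orth Cfsg.Geo Cfsg.Agent.OMax
open scoped Matrix Kronecker

variable {ι : Type} [Fintype ι] [DecidableEq ι] {F : Type*} [Field F] [Fintype F] {Q : QuadraticForm F (ι → F)}
  {n₁ n₂ : ℕ} {e : ι ≃ Fin n₁ × Fin n₂} {P : Matrix.GeneralLinearGroup ι F}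
  {f₁ : (Fin n₁ → F) → (Fin n₁ → F) → F} {f₂ : (Fin n₂ → F) → (Fin n₂ → F) → F}

theorem gram_tens {c : F}
    (hform : ∀ x y x' y', polar Q (tvc e P (ptens x y)) (tvc e P (ptens x' y')) = c * (f₁ x x' * f₂ y y')) :
    gram Q ((Pi.basisFun F (Fin n₁ × Fin n₂)).map (AschCases.tmap e P)) =
      c • (gramMatrix f₁ ⊗ₖ gramMatrix f₂) := by
  have hs : ∀ p : Fin n₁ × Fin n₂, (Pi.single p (1 : F) : Fin n₁ × Fin n₂ → F) =
      ptens (Pi.single p.1 1) (Pi.single p.2 1) := by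
    rintro ⟨i, j⟩
    funext ⟨a, b⟩
    by_cases h1 : a = i
    · subst h1
      by_cases h2 : b = j
      · subst h2; simp [ptens]
      · simp [ptens, h2]
    · simp [ptens, h1]
  ext p p'
  rw [gram, Matrix.of_apply, Basis.map_apply, Basis.map_apply, Pi.basisFun_apply, Pi.basisFun_apply,
    Matrix.smul_apply, smul_eq_mul, Matrix.kroneckerMap_apply, gramMatrix, gramMatrix, ← hform, ← hs, ← hs]
  rfl

/-- the type of a product of an odd-dimensional and an even-dimensional symmetric form -/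
theorem isPlus_iff_of_symm_tensor (hQ : (polarBilin Q).Nondegenerate) (h2 : (2 : F) ≠ 0) (hn₁ : Odd n₁) {m : ℕ}
    (hn₂ : n₂ = 2 * m) (hf₁ : IsSymmetricForm f₁) (hf₂ : IsSymmetricForm f₂)
    (hT : IsTensorFormStructure id (polar ⇑Q) f₁ f₂ e P) :
    IsPlus Q ↔ IsPlusTypeOn (fun v : Fin n₂ → F => f₂ v v) ⊤ := by
  obtain ⟨c, hc, hform⟩ := tens_form hf₁.bilinear hf₂.bilinear hT
  set q := qOfBil hf₂.bilinear with hq
  have hpol : ∀ x y, polar q x y = 2 * f₂ x y := qOfBil_polar hf₂.bilinear hf₂.symm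
  have hnd : (polarBilin q).Nondegenerate := by
    have h1 : ∀ x, (∀ y, polar q x y = 0) → x = 0 := by
      intro x hx
      by_contra h0
      obtain ⟨-, ⟨y, hy⟩⟩ := hf₂.nondegenerate x h0
      have h3 := hx y
      rw [hpol] at h3
      exact hy ((mul_eq_zero.1 h3).resolve_left h2)
    exact ⟨fun x hx => h1 x hx, fun x hx => h1 x fun y => by rw [pc]; exact hx y⟩
  have hpl : IsPlusTypeOn (fun v : Fin n₂ → F => f₂ v v) ⊤ ↔ IsPlus q := isPlusTypeOn_top_iff (Q := q)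
  have hcard : finrank F (ι → F) = 2 * (n₁ * m) := by
    rw [finrank_fintype_fun_eq_card, Fintype.card_congr e, Fintype.card_prod, Fintype.card_fin, Fintype.card_fin, hn₂]
    ring
  have hg₂ : gram q (Pi.basisFun F (Fin n₂)) = (2 : F) • gramMatrix f₂ := by
    ext i j
    rw [gram, Matrix.of_apply, hpol, Pi.basisFun_apply, Pi.basisFun_apply, Matrix.smul_apply, smul_eq_mul, gramMatrix]
  have hsesq₁ : Asch.IsSesq (RingEquiv.refl F) f₁ :=
    ⟨hf₁.bilinear.add_left, hf₁.bilinear.smul_left, hf₁.bilinear.add_right, hf₁.bilinear.smul_right⟩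
  have hG₁ : (gramMatrix f₁).det ≠ 0 := hsesq₁.gram_det_ne_zero fun v hv => (hf₁.nondegenerate v hv).2
  have hsesq₂ : Asch.IsSesq (RingEquiv.refl F) f₂ :=
    ⟨hf₂.bilinear.add_left, hf₂.bilinear.smul_left, hf₂.bilinear.add_right, hf₂.bilinear.smul_right⟩
  have hG₂ : (gramMatrix f₂).det ≠ 0 := hsesq₂.gram_det_ne_zero fun v hv => (hf₂.nondegenerate v hv).2
  rw [hpl, isPlus_iff_isSquare h2 hnd (m := m) (by rw [finrank_fin_fun, hn₂]) (Pi.basisFun F (Fin n₂)), hg₂,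
    isPlus_iff_isSquare h2 hQ hcard ((Pi.basisFun F (Fin n₁ × Fin n₂)).map (AschCases.tmap e P)), gram_tens hform,
    Matrix.det_smul, Matrix.det_smul, Matrix.det_kronecker, Fintype.card_fin, Fintype.card_prod, Fintype.card_fin,
    Fintype.card_fin]
  obtain ⟨s, hs⟩ := hn₁
  set a := (gramMatrix f₁).det
  set d := (gramMatrix f₂).det
  have e1 : (-1 : F) ^ (n₁ * m) * (c ^ (n₁ * n₂) * (a ^ n₂ * d ^ n₁)) =
      ((-1) ^ (s * m) * c ^ (n₁ * m) * a ^ m * d ^ s) ^ 2 * ((-1) ^ m * d) := by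
    rw [hs, hn₂]; ring
  have e2 : (-1 : F) ^ m * (2 ^ n₂ * d) = (2 ^ m) ^ 2 * ((-1) ^ m * d) := by
    rw [hn₂]; ring
  have h1 : ((-1 : F) ^ (s * m) * c ^ (n₁ * m) * a ^ m * d ^ s) ^ 2 ≠ 0 :=
    pow_ne_zero 2 (mul_ne_zero (mul_ne_zero (mul_ne_zero (pow_ne_zero _ (by simp)) (pow_ne_zero _ hc))
      (pow_ne_zero _ hG₁)) (pow_ne_zero _ hG₂))
  have h3 : ((2 : F) ^ m) ^ 2 ≠ 0 := pow_ne_zero 2 (pow_ne_zero _ h2)
  rw [e1, e2, isSquare_mul_iff_of_sq ⟨_, pow_two _⟩ h1, isSquare_mul_iff_of_sq ⟨_, pow_two _⟩ h3]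

end Cfsg.Agent.OCase
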