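import Cfsg.Agent.OCase.Row5874
import Cfsg.Agent.OCase.TensType

/-!
Maximal subgroups of `Ω₁₂⁺(q)`.
-/

set_option autoImplicit false
set_option linter.unusedSectionVars false

namespace Cfsg.Agent.OCase

open QuadraticMap Module Cfsg.Agent.Orth Cfsg.Geo

variable {F : Type*} [Field F] [Fintype F] {Q : QuadraticForm F (Fin 12 → F)}
  {H : Subgroup (Matrix.GeneralLinearGroup (Fin 12) F)}

theorem row5871 (c : Ctx Q H) (hp : IsPlus Q) : G12p ⇑Q H := by
  unfold G12p
  have hc12 : Fintype.card (Fin 12) = 2 * 6 := by simp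
  -- members of dimension six
  have key6 : ∀ W : Submodule F (Fin 12 → F), IsNondegenerateOn (polar ⇑Q) W → finrank F W = 6 →
      H = subspaceStabilizer W ⊓ omegaGL ⇑Q →
      (∃ D : Fin 2 → Submodule F (Fin 12 → F), IsOrthogonalMDecomposition ⇑Q 6 D ∧
        H = decompositionStabilizer D ⊓ omegaGL ⇑Q) := by
    intro W hW hd hH
    obtain ⟨-, h2, h3⟩ := c.half hW (by rw [hd]) hH
    exact ⟨_, hd ▸ h3 (Ctx.isom_half_of_plus c.hQ hp hW (by rw [hd]; decide) (by rw [hd])), h2⟩
  rcases c.member (fun a ha h4 => by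
    intro h8
    have : 4 * 4 ≤ a * a := Nat.mul_le_mul h4 h4
    omega) with ⟨M, hM, hH⟩ | hres
  swap
  · iterate 18 refine Or.inr ?_
    exact hres
  rcases hM with ⟨W, h1, h2, rfl⟩ | ⟨W, h1, h2, h3, rfl⟩ | ⟨v, h1, h2, rfl⟩ | ⟨t, k, D, h1, h2, rfl⟩ |
    ⟨k, D, h1, h2, h3, rfl⟩ | ⟨r, K, h1, h2, h3, h4, rfl⟩ | ⟨K, h1, h2, h3, h4, rfl⟩ |
    ⟨n₁, n₂, e, P, f₁, f₂, h1, h2, h3, h4, h5, h6, rfl⟩ | ⟨n₁, n₂, e, P, f₁, f₂, h1, h2, h3, h4, h5, h6, rfl⟩ |
    ⟨F₀, r, P, ζ, h1, h2, h3, h4, rfl⟩ | ⟨R, p, k, h1, h2, h3, h4, h5, h6, h7, h8, h9, h10, rfl⟩ |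
    ⟨k, t, e, P, f₁, h1, h2, h3, h4, h5, h6, rfl⟩ | ⟨k, t, e, P, f₁, h1, h2, h3, h4, h5, rfl⟩
  · -- 1a
    by_cases h5 : finrank F W = 5
    · obtain ⟨U, g0, g1, g2, g3⟩ := c.ts_up hp h2 (by rw [h5]) hH
      exact Or.inl ⟨U, g0, g1, by omega, g3⟩
    · exact Or.inl ⟨W, h1, h2, h5, hH⟩
  · -- 1b
    rcases c.class1b h1 h2 h3 hH with ⟨ho, W, g0, g1, g2, g5, g3, g4⟩ | h | h | h | ⟨W, g1, g2, g3, g4, g5⟩
    · refine Or.inr (Or.inl ⟨ho, W, g0, g1, g2, ?_, g3, g4⟩)
      intro h6
      have : finrank F W = 6 := by omega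
      rw [this] at g2
      exact absurd g2 (by decide)
    · exact Or.inr (Or.inr (Or.inl h))
    · exact Or.inr (Or.inr (Or.inr (Or.inl h)))
    · exact Or.inr (Or.inr (Or.inr (Or.inr (Or.inr (Or.inl h)))))
    · have : finrank F W = 4 ∨ finrank F W = 6 := by
        obtain ⟨s, hs⟩ := g1
        omega
      rcases this with h | h
      · exact Or.inr (Or.inr (Or.inr (Or.inr (Or.inl ⟨W, h, g4, g5⟩))))
      · iterate 11 refine Or.inr ?_
        exact Or.inl (key6 W g4 h g5)
  · exact Or.inr (Or.inr (Or.inr (Or.inr (Or.inr (Or.inl ⟨h1, v, h2, hH⟩)))))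
  · -- 2a
    have hn := Ctx.n_eq h2
    have ht := Ctx.t_ne_zero h2
    have hk : k ∣ 12 := ⟨t, by rw [hn]; ring⟩
    have hk8 : k ≤ 12 := Nat.le_of_dvd (by norm_num) hk
    interval_cases k
    · omega
    · -- k = 1
      have ho := Ctx.odd_of_one h2 odd_one
      obtain rfl : t = 12 := by omega
      iterate 6 refine Or.inr ?_
      exact Or.inl ⟨⟨_, h1.resolve_left (by norm_num), ho, rfl⟩, D, h2, hH⟩
    · -- k = 2
      obtain rfl : t = 6 := by omega
      rcases Ctx.type_cases h2 with hpp | hpm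
      · rcases c.plus_plane h2 hpp hH with h | ⟨hq, D', g1, g2⟩ | ⟨hq, F₀, P, g1, g2, g3⟩ | ⟨hq, W, g1, g2, g3⟩ |
          ⟨hq, s, g1, g2, g3⟩
        · iterate 7 refine Or.inr ?_
          exact Or.inl ⟨h, D, h2, hpp, hH⟩
        · iterate 6 refine Or.inr ?_
          exact Or.inl ⟨⟨5, by norm_num, by decide, hq⟩, D', g1, g2⟩
        · iterate 17 refine Or.inr ?_
          exact Or.inl ⟨F₀, 2, P, 1, Nat.prime_two, g1, one_ne_zero, g2, g3⟩
        · iterate 11 refine Or.inr ?_
          exact Or.inl (key6 W g2 g1 g3)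
        · have h22 : (2 : F) = 0 := two_eq_zero_of_card_two hq
          have hs1 : finrank F (Submodule.span F {s}) = 1 := finrank_span_singleton g1
          refine Or.inl ⟨Submodule.span F {s}, Ctx.ne_bot_of_finrank (by omega), ?_, by omega, g3⟩
          intro w hw
          obtain ⟨a, rfl⟩ := Submodule.mem_span_singleton.1 hw
          rw [qsmul, g2]
          have : ((6 : ℕ) : F) = 2 * 3 := by norm_num
          rw [this, h22]
          ring
      · by_cases hq : Fintype.card F = 3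
        · obtain ⟨D', g1, g2⟩ := c.minus_plane_three hq h2 hpm hH
          iterate 6 refine Or.inr ?_
          exact Or.inl ⟨⟨3, by norm_num, by decide, hq⟩, D', g1, g2⟩
        · iterate 8 refine Or.inr ?_
          exact Or.inl ⟨hq, D, h2, hpm, hH⟩
    · -- k = 3
      have ho := Ctx.odd_of_one h2 (by decide)
      obtain rfl : t = 4 := by omega
      by_cases hq : Fintype.card F = 3
      · obtain ⟨D', g1, g2⟩ := c.three_three hq h2 hH
        iterate 6 refine Or.inr ?_
        exact Or.inl ⟨⟨3, by norm_num, by decide, hq⟩, D', g1, g2⟩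
      · have hq5 : 5 ≤ Fintype.card F := by
          have := Fintype.one_lt_card (α := F)
          have := Nat.odd_iff.1 ho
          omega
        iterate 9 refine Or.inr ?_
        exact Or.inl ⟨ho, hq5, D, h2, hH⟩
    · -- k = 4
      obtain rfl : t = 3 := by omega
      by_cases hq : 3 ≤ Fintype.card F
      · iterate 10 refine Or.inr ?_
        exact Or.inl ⟨hq, D, h2, hH⟩
      · have hq2 : Fintype.card F = 2 := by
          have := Fintype.one_lt_card (α := F)
          omega
        have hpp : ∀ i, IsPlusTypeOn ⇑Q (D i) := fun i =>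
          ((Ctx.isPlus_iff_even h2 (by decide) i).1 hp).resolve_right (by decide)
        obtain ⟨D', g1, g2, g3⟩ := c.four_two hq2 h2 hpp hH
        iterate 8 refine Or.inr ?_
        exact Or.inl ⟨by omega, D', g1, g2, g3⟩
    · omega
    · -- k = 6
      obtain rfl : t = 2 := by omega
      iterate 11 refine Or.inr ?_
      exact Or.inl ⟨D, h2, hH⟩
    all_goals omega
  · -- 2b
    have hk : k = 6 := by rw [Fintype.card_fin] at h1; omega
    subst hk
    iterate 12 refine Or.inr ?_
    exact Or.inl ⟨D, h2, h3, hH⟩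
  · -- 3a
    have hd := AschCases.dvd_card_of_isFieldSubalgebra h3
    rw [Fintype.card_fin] at hd
    rcases prime_dvd_twelve h1 hd with rfl | rfl
    · iterate 13 refine Or.inr ?_
      exact Or.inl ⟨K, h3, hH⟩
    · iterate 14 refine Or.inr ?_
      exact Or.inl ⟨K, h3, hH⟩
  · -- 3b
    iterate 15 refine Or.inr ?_
    exact Or.inl ⟨K, h1, h2, h3, h4, hH⟩
  · -- 4a
    have hce := Fintype.card_congr e
    rw [Fintype.card_fin, Fintype.card_prod, Fintype.card_fin, Fintype.card_fin] at hce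
    have hn₁ : n₁ = 3 := by
      by_contra hcon
      have : 4 * 5 ≤ n₁ * n₂ := Nat.mul_le_mul (by omega) (by omega)
      omega
    subst hn₁
    obtain rfl : n₂ = 4 := by omega
    have h22 := two_ne_zero_of_odd h1
    have hf₂ := (isPlus_iff_of_symm_tensor c.hQ h22 (by decide) (m := 2) rfl h4 h5 h6).1 hp
    obtain ⟨e', P', f₁', f₂', g1, g2, g3, g4, g5⟩ := symm_tensor_le_sympl c.hQ h22 (by decide) h4 h5 h6 hf₂
    have hq3 : 3 ≤ Fintype.card F := by
      have := Fintype.one_lt_card (α := F)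
      have := Nat.odd_iff.1 h1
      omega
    have hH' := c.of_le hH g5 (AschCases.orthMember_not_le' c.hQ c.card
      (Or.inr (Or.inr (Or.inr (Or.inr (Or.inr (Or.inr (Or.inr (Or.inr (Or.inl ⟨2, 3 * 2, e', P', f₁', f₂', le_rfl,
        by norm_num, g1, g2, g3, g4, rfl⟩))))))))))
    iterate 16 refine Or.inr ?_
    exact Or.inl ⟨hq3, e', P', f₁', f₂', g1, g2, g3, g4, hH'⟩
  · -- 4b
    have hce := Fintype.card_congr e
    rw [Fintype.card_fin, Fintype.card_prod, Fintype.card_fin, Fintype.card_fin] at hce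
    have hn₁ : n₁ = 2 ∨ n₁ = 3 := by
      by_contra hcon
      have : 4 * 5 ≤ n₁ * n₂ := Nat.mul_le_mul (by omega) (by omega)
      omega
    rcases hn₁ with rfl | rfl
    · obtain rfl : n₂ = 6 := by omega
      by_cases hq : 3 ≤ Fintype.card F
      · iterate 16 refine Or.inr ?_
        exact Or.inl ⟨hq, e, P, f₁, f₂, h3, h4, h5, h6, hH⟩
      · have hq2 : Fintype.card F = 2 := by
          have := Fintype.one_lt_card (α := F)
          omega
        obtain ⟨K, g1, g2⟩ := AschCases.tensor_two_le hq2 (by norm_num) e P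
        iterate 13 refine Or.inr ?_
        exact Or.inl ⟨K, g1, c.of_le hH (inf_le_left.trans g2)
          (AschCases.OrthNot.not_le_subalgebraNormalizer c.hQ c.card le_rfl K g1)⟩
    · have := Asch.even_card_of_isSymplecticForm h3
      rw [Fintype.card_fin] at this
      exact absurd this (by decide)
  · -- 5
    iterate 17 refine Or.inr ?_
    exact Or.inl ⟨F₀, r, P, ζ, h1, h2, h3, h4, hH⟩
  · -- 6
    exfalso
    rw [Fintype.card_fin] at h10
    have hk : k < 4 := by
      by_contra hcon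
      have : 2 ^ 4 ≤ 2 ^ k := Nat.pow_le_pow_right (by norm_num) (by omega)
      omega
    interval_cases k <;> omega
  · -- 7a
    exfalso
    have hce := Fintype.card_congr e
    rw [Fintype.card_fin, Fintype.card_fun, Fintype.card_fin, Fintype.card_fin] at hce
    exact pow_ne_twelve h3 hce.symm
  · -- 7b
    exfalso
    have hce := Fintype.card_congr e
    rw [Fintype.card_fin, Fintype.card_fun, Fintype.card_fin, Fintype.card_fin] at hce
    exact pow_ne_twelve h1 hce.symm

end Cfsg.Agent.OCase
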