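import Cfsg.Agent.OCase.Cases3
import Cfsg.Agent.OMax.Tens33

/-!
Class 4, symmetric factors.
-/

set_option autoImplicit false
set_option linter.unusedSectionVars false

namespace Cfsg.Agent.OCase

open QuadraticMap Module Cfsg.Agent.Orth Cfsg.Geo Cfsg.Agent.OMax
open scoped Matrix

variable {ι : Type} [Fintype ι] [DecidableEq ι] {F : Type*} [Field F] [Fintype F] {Q : QuadraticForm F (ι → F)}
  {n₁ n₂ : ℕ} {e : ι ≃ Fin n₁ × Fin n₂} {P : Matrix.GeneralLinearGroup ι F}
  {f₁ : (Fin n₁ → F) → (Fin n₁ → F) → F} {f₂ : (Fin n₂ → F) → (Fin n₂ → F) → F}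

theorem tau_zero_right (x : Fin n₁ → F) : tvc e P (ptens x (0 : Fin n₂ → F)) = 0 := by
  rw [← zero_smul F (0 : Fin n₂ → F), (tau_std e P).smul_right, zero_smul]

theorem tau_ne_zero {x : Fin n₁ → F} {y : Fin n₂ → F} (hx : x ≠ 0) (hy : y ≠ 0) : tvc e P (ptens x y) ≠ 0 := by
  intro h
  have e0 : tvc e P (ptens x y) = tvc e P (ptens (0 : Fin n₁ → F) y) := by
    rw [h, ← zero_smul F (0 : Fin n₁ → F), (tau_std e P).smul_left, zero_smul]
  obtain ⟨ν, h1, h2⟩ := (tau_std e P).inj 0 y x y e0.symm hx hy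
  have hν : ν = 0 := (smul_eq_zero.1 h1.symm).resolve_right hx
  rw [hν, zero_smul] at h2
  exact hy h2

/-- a general vector is a sum of pure tensors -/
theorem tvc_eq_sum (x : Fin n₁ × Fin n₂ → F) :
    tvc e P x = ∑ i, tvc e P (ptens (Pi.single i (1 : F)) (fun j => x (i, j))) := by
  have h1 : x = ∑ i, ptens (Pi.single i (1 : F)) (fun j => x (i, j)) := by
    funext p
    obtain ⟨a, b⟩ := p
    rw [Finset.sum_apply, Finset.sum_eq_single a]
    · simp [ptens]
    · intro i _ hi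
      simp [ptens, Pi.single_eq_of_ne hi.symm]
    · intro ha; exact absurd (Finset.mem_univ a) ha
  have h2 : ∀ (s : Finset (Fin n₁)) (w : Fin n₁ → (Fin n₁ × Fin n₂ → F)),
      tvc e P (∑ i ∈ s, w i) = ∑ i ∈ s, tvc e P (w i) := by
    intro s w
    induction s using Finset.induction_on with
    | empty =>
      rw [Finset.sum_empty, Finset.sum_empty, ← zero_smul F (0 : Fin n₁ × Fin n₂ → F), tvc_smul, zero_smul]
    | insert a s ha ih => rw [Finset.sum_insert ha, Finset.sum_insert ha, tvc_add, ih]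
  conv_lhs => rw [h1]
  rw [h2]

/-- **class 4, symmetric factors**: a plus type factor forces plus type -/
theorem isPlus_of_symm_tensor (h2 : (2 : F) ≠ 0) (hb₁ : IsBilinearForm f₁) (hf₂ : IsSymmetricForm f₂)
    (hT : IsTensorFormStructure id (polar ⇑Q) f₁ f₂ e P)
    (hp : IsPlusTypeOn (fun v : Fin n₂ → F => f₂ v v) ⊤) : IsPlus Q := by
  obtain ⟨c, hc, hform⟩ := tens_form hb₁ hf₂.bilinear hT
  obtain ⟨U, -, hU, hd⟩ := hp
  have hU0 : ∀ u ∈ U, ∀ v ∈ U, f₂ u v = 0 := by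
    intro u hu v hv
    have e1 : f₂ (u + v) (u + v) = 0 := hU _ (U.add_mem hu hv)
    have e2 : f₂ u u = 0 := hU _ hu
    have e3 : f₂ v v = 0 := hU _ hv
    rw [hf₂.bilinear.add_left, hf₂.bilinear.add_right, hf₂.bilinear.add_right, e2, e3, hf₂.symm v u] at e1
    have e4 : (2 : F) * f₂ u v = 0 := by linear_combination e1
    exact (mul_eq_zero.1 e4).resolve_left h2
  let L : (Fin n₁ → U) →ₗ[F] (ι → F) :=
    { toFun := fun y => tvc e P (fun p => (y p.1 : Fin n₂ → F) p.2)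
      map_add' := fun y y' => by rw [← tvc_add]; rfl
      map_smul' := fun c y => by rw [RingHom.id_apply, ← tvc_smul]; rfl }
  have hL : ∀ y, L y = tvc e P (fun p => (y p.1 : Fin n₂ → F) p.2) := fun _ => rfl
  have hLs : ∀ y, L y = ∑ i, tvc e P (ptens (Pi.single i (1 : F)) (y i : Fin n₂ → F)) := by
    intro y
    rw [hL, tvc_eq_sum]
  have hinj : Function.Injective L := by
    rw [← LinearMap.ker_eq_bot, LinearMap.ker_eq_bot']
    intro y hy
    have h0 : L y = L 0 := by rw [hy, map_zero]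
    have h1 := tvc_inj h0
    funext i
    refine Subtype.ext (funext fun j => ?_)
    exact congrFun h1 (i, j)
  refine ⟨LinearMap.range L, ?_, ?_⟩
  · rintro _ ⟨y, rfl⟩
    have h1 : polar Q (L y) (L y) = 0 := by
      rw [hLs, ← polarBilin_apply_apply, map_sum]
      refine Finset.sum_eq_zero fun i _ => ?_
      rw [map_sum, LinearMap.sum_apply]
      refine Finset.sum_eq_zero fun j _ => ?_
      rw [polarBilin_apply_apply, hform, hU0 _ (y j).2 _ (y i).2, mul_zero, mul_zero]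
    rw [pself] at h1
    exact (mul_eq_zero.1 h1).resolve_left h2
  · rw [LinearMap.finrank_range_of_inj hinj, Module.finrank_pi_fintype, Finset.sum_const, Finset.card_univ,
      Fintype.card_fin, finrank_fintype_fun_eq_card, Fintype.card_congr e, Fintype.card_prod, Fintype.card_fin,
      Fintype.card_fin, smul_eq_mul]
    rw [finrank_top, finrank_fin_fun] at hd
    calc 2 * (n₁ * finrank F U) = n₁ * (2 * finrank F U) := by ring
      _ = n₁ * n₂ := by rw [hd]

/-- **three elements**: a factor of dimension three splits -/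
theorem decomp_of_three {e : ι ≃ Fin 3 × Fin n₂} {f₁ : (Fin 3 → F) → (Fin 3 → F) → F} (hn₂ : 0 < n₂)
    (hq : Fintype.card F = 3) (hf₁ : IsSymmetricForm f₁)
    (hf₂ : IsSymmetricForm f₂) (hT : IsTensorFormStructure id (polar ⇑Q) f₁ f₂ e P) :
    ∃ D : Fin 3 → Submodule F (ι → F), IsOrthogonalMDecomposition ⇑Q n₂ D ∧
      tensorProductSubgroup 3 n₂ e P ⊓ omegaGL ⇑Q ≤ decompositionStabilizer D := by
  have h2 : (2 : F) ≠ 0 := two_ne_zero_of_odd (by rw [hq]; decide)
  obtain ⟨c, hc, hform⟩ := tens_form hf₁.bilinear hf₂.bilinear hT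
  obtain ⟨u, ε, hu⟩ := exists_fr3 hq hf₁
  have hτ := tau_std e P
  have hu0 := fun k => hu.ne_zero hf₁.bilinear k
  let E : Fin 3 → ((Fin n₂ → F) →ₗ[F] (ι → F)) := fun i =>
    { toFun := fun y => tvc e P (ptens (u i) y)
      map_add' := fun y y' => hτ.add_right _ _ _
      map_smul' := fun c y => hτ.smul_right _ _ _ }
  have hE : ∀ i y, E i y = tvc e P (ptens (u i) y) := fun _ _ => rfl
  have hEinj : ∀ i, Function.Injective (E i) := by
    intro i
    rw [← LinearMap.ker_eq_bot, LinearMap.ker_eq_bot']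
    intro y hy
    by_contra hy0
    exact tau_ne_zero (hu0 i) hy0 hy
  have hpol : ∀ i j y y', polar Q (E i y) (E j y') = c * (f₁ (u i) (u j) * f₂ y y') := fun i j y y' => hform _ _ _ _
  have hpol' : ∀ i y y', polar Q (E i y) (E i y') = c * ε * f₂ y y' := by
    intro i y y'
    rw [hpol, hu.self]; ring
  have hcε : c * ε ≠ 0 := mul_ne_zero hc hu.eps
  obtain ⟨y₀, hy₀⟩ : ∃ y₀ : Fin n₂ → F, y₀ ≠ 0 :=
    ⟨Pi.single ⟨0, hn₂⟩ 1, fun h => one_ne_zero (α := F) (by simpa using congrFun h ⟨0, hn₂⟩)⟩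
  have hD : IsNondegenerateMDecomposition (polar ⇑Q) n₂ (fun i => LinearMap.range (E i)) := by
    refine isNondegenerateMDecomposition_of_orthogonal (by norm_num) hn₂ ?_ ?_ ?_ ?_
    · intro i
      rw [LinearMap.finrank_range_of_inj (hEinj i), finrank_fin_fun]
    · intro i
      rw [eq_bot_iff]
      rintro _ ⟨⟨y, rfl⟩, hy⟩
      by_contra hne
      have hy0 : y ≠ 0 := by
        rintro rfl
        exact hne ((Submodule.mem_bot F).2 (map_zero _))
      obtain ⟨⟨y', hy'⟩, -⟩ := hf₂.nondegenerate y hy0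
      have h3 : polar Q (E i y') (E i y) = 0 := hy _ ⟨y', rfl⟩
      rw [hpol'] at h3
      exact hy' ((mul_eq_zero.1 h3).resolve_left hcε)
    · rintro i j hij _ ⟨y, rfl⟩ _ ⟨y', rfl⟩
      rw [hpol, hu.orth i j hij, zero_mul, mul_zero]
    · rw [Fintype.card_congr e, Fintype.card_prod, Fintype.card_fin, Fintype.card_fin]
  refine ⟨fun i => LinearMap.range (E i), ⟨hD, fun i j => ?_⟩, ?_⟩
  · refine ⟨(LinearEquiv.ofInjective (E i) (hEinj i)).symm.trans (LinearEquiv.ofInjective (E j) (hEinj j)), fun x => ?_⟩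
    obtain ⟨y, rfl⟩ := (LinearEquiv.ofInjective (E i) (hEinj i)).surjective x
    rw [LinearEquiv.trans_apply, LinearEquiv.symm_apply_apply]
    change Q (E j y) = Q (E i y)
    have h3 : (2 : F) * Q (E j y) = 2 * Q (E i y) := by rw [← pself, ← pself, hpol', hpol']
    exact mul_left_cancel₀ h2 h3
  · refine (inf_omegaGL_le_iff Q _ _).2 fun g _ hM => ?_
    obtain ⟨A, B, hAB⟩ := tens_act hM
    refine mem_decomp_of_forall hD.decomp fun i => ?_
    obtain ⟨κ, hκ, h1⟩ := factor_sim (V := ι → F) (τ := fun x y => tvc e P (ptens x y)) (Φ := polar ⇑Q) (n := n₂)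
      (A := fun x => (A : Matrix (Fin 3) (Fin 3) F) *ᵥ x) (B := fun y => (B : Matrix (Fin n₂) (Fin n₂) F) *ᵥ y)
      hc hform (by obtain ⟨⟨y', hy'⟩, -⟩ := hf₂.nondegenerate y₀ hy₀; exact ⟨_, _, hy'⟩)
      (by obtain ⟨⟨y', hy'⟩, -⟩ := hf₁.nondegenerate (u 0) (hu0 0); exact ⟨_, _, hy'⟩)
      (g := fun v => ((toGL g : Matrix.GeneralLinearGroup ι F) : Matrix ι ι F) *ᵥ v)
      (fun a b => by
        simp only [toGL_mulVec]
        exact OGrp_polar g a b) hAB
    obtain ⟨l, hl⟩ := hu.perm hq hf₁ (A : Matrix (Fin 3) (Fin 3) F) hκ h1 i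
    refine ⟨l, ?_⟩
    rintro _ ⟨_, ⟨y, rfl⟩, rfl⟩
    have h3 : (g : (ι → F) ≃ₗ[F] (ι → F)) (E i y) = tvc e P (ptens ((A : Matrix (Fin 3) (Fin 3) F) *ᵥ u i)
        ((B : Matrix (Fin n₂) (Fin n₂) F) *ᵥ y)) := by
      rw [← hAB, toGL_mulVec]; rfl
    change (g : (ι → F) ≃ₗ[F] (ι → F)) (E i y) ∈ _
    rw [h3]
    rcases hl with h4 | h4
    · rw [h4]; exact ⟨_, rfl⟩
    · rw [h4, ← neg_one_smul F (u l), hτ.smul_left]
      exact Submodule.smul_mem _ _ ⟨_, rfl⟩

end Cfsg.Agent.OCase
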