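import Cfsg.Agent.OCase.Row10
import Cfsg.Agent.OCase.Tens34

/-!
Maximal subgroups of `Ω₁₂⁻(q)`.
-/

set_option autoImplicit false
set_option linter.unusedSectionVars false

namespace Cfsg.Agent.OCase

open QuadraticMap Module Cfsg.Agent.Orth Cfsg.Geo

variable {F : Type*} [Field F] [Fintype F] {Q : QuadraticForm F (Fin 12 → F)}
  {H : Subgroup (Matrix.GeneralLinearGroup (Fin 12) F)}

theorem prime_dvd_twelve {r : ℕ} (hr : r.Prime) (hd : r ∣ 12) : r = 2 ∨ r = 3 := by
  have h1 : r ≤ 12 := Nat.le_of_dvd (by norm_num) hd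
  have h2 := hr.two_le
  interval_cases r
  · exact Or.inl rfl
  · exact Or.inr rfl
  · exact absurd hr (by norm_num)
  · omega
  · exact absurd hr (by norm_num)
  · omega
  · omega
  · omega
  · omega
  · omega
  · exact absurd hr (by norm_num)

theorem row5874 (c : Ctx Q H) (hmin : ¬ IsPlus Q) : G12m ⇑Q H := by
  unfold G12m
  have hc12 : Fintype.card (Fin 12) = 2 * 6 := by simp
  rcases c.member (fun a ha h4 => by
    intro h8
    have : 4 * 4 ≤ a * a := Nat.mul_le_mul h4 h4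
    omega) with ⟨M, hM, hH⟩ | hres
  swap
  · iterate 12 refine Or.inr ?_
    exact hres
  rcases hM with ⟨W, h1, h2, rfl⟩ | ⟨W, h1, h2, h3, rfl⟩ | ⟨v, h1, h2, rfl⟩ | ⟨t, k, D, h1, h2, rfl⟩ |
    ⟨k, D, h1, h2, h3, rfl⟩ | ⟨r, K, h1, h2, h3, h4, rfl⟩ | ⟨K, h1, h2, h3, h4, rfl⟩ |
    ⟨n₁, n₂, e, P, f₁, f₂, h1, h2, h3, h4, h5, h6, rfl⟩ | ⟨n₁, n₂, e, P, f₁, f₂, h1, h2, h3, h4, h5, h6, rfl⟩ |
    ⟨F₀, r, P, ζ, h1, h2, h3, h4, rfl⟩ | ⟨R, p, k, h1, h2, h3, h4, h5, h6, h7, h8, h9, h10, rfl⟩ |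
    ⟨k, t, e, P, f₁, h1, h2, h3, h4, h5, h6, rfl⟩ | ⟨k, t, e, P, f₁, h1, h2, h3, h4, h5, rfl⟩
  · -- 1a
    exact Or.inl ⟨W, h1, h2, hH⟩
  · -- 1b
    rcases c.class1b h1 h2 h3 hH with ⟨ho, W, g0, g1, g2, g5, g3, g4⟩ | h | h | h | ⟨W, g1, g2, g3, g4, g5⟩
    · refine Or.inr (Or.inl ⟨ho, W, g0, g1, g2, ?_, g3, g4⟩)
      intro h6
      have : finrank F W = 6 := by omega
      rw [this] at g2
      exact absurd g2 (by decide)
    · exact Or.inr (Or.inr (Or.inl h))
    · exact Or.inr (Or.inr (Or.inr (Or.inl h)))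
    · exact Or.inr (Or.inr (Or.inr (Or.inr (Or.inr (Or.inr (Or.inl h))))))
    · have : finrank F W = 4 ∨ finrank F W = 6 := by
        obtain ⟨s, hs⟩ := g1
        omega
      rcases this with h | h
      · exact Or.inr (Or.inr (Or.inr (Or.inr (Or.inl ⟨W, h, g4, g5⟩))))
      · exact Or.inr (Or.inr (Or.inr (Or.inr (Or.inr (Or.inl ⟨W, h, g4, g5⟩)))))
  · exact Or.inr (Or.inr (Or.inr (Or.inr (Or.inr (Or.inr (Or.inl ⟨h1, v, h2, hH⟩))))))
  · -- 2a
    have hn := Ctx.n_eq h2
    have ht := Ctx.t_ne_zero h2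
    have hk : k ∣ 12 := ⟨t, by rw [hn]; ring⟩
    have hk8 : k ≤ 12 := Nat.le_of_dvd (by norm_num) hk
    have hsq : IsSquare ((-1 : F) ^ 6) := ⟨1, by norm_num⟩
    interval_cases k
    · omega
    · -- k = 1
      exfalso
      have ho := Ctx.odd_of_one h2 odd_one
      obtain rfl : t = 12 := by omega
      exact hmin ((isPlus_iff_of_decomp_even (two_ne_zero_of_odd ho) c.hQ h2 (by decide) hc12).2 hsq)
    · -- k = 2
      exact absurd ((Ctx.isPlus_iff_even h2 (by decide) ⟨0, by omega⟩).2 (Or.inr ⟨3, by omega⟩)) hmin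
    · -- k = 3
      exfalso
      have ho := Ctx.odd_of_one h2 (by decide)
      obtain rfl : t = 4 := by omega
      exact hmin ((isPlus_iff_of_decomp_even (two_ne_zero_of_odd ho) c.hQ h2 (by decide) hc12).2 hsq)
    · -- k = 4
      obtain rfl : t = 3 := by omega
      iterate 7 refine Or.inr ?_
      exact Or.inl ⟨D, h2, fun i h => hmin ((Ctx.isPlus_iff_even h2 (by decide) i).2 (Or.inl h)), hH⟩
    · omega
    · -- k = 6
      exact absurd ((Ctx.isPlus_iff_even h2 (by decide) ⟨0, by omega⟩).2 (Or.inr ⟨1, by omega⟩)) hmin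
    all_goals omega
  · -- 2b
    exfalso
    rw [Fintype.card_fin] at h1
    exact hmin ⟨D 0, h3 0, by rw [h2.finrank_eq, finrank_fin_fun, h1]⟩
  · -- 3a
    have hd := AschCases.dvd_card_of_isFieldSubalgebra h3
    rw [Fintype.card_fin] at hd
    rcases prime_dvd_twelve h1 hd with rfl | rfl
    · iterate 8 refine Or.inr ?_
      exact Or.inl ⟨K, h3, hH⟩
    · iterate 9 refine Or.inr ?_
      exact Or.inl ⟨K, h3, hH⟩
  · -- 3b
    iterate 8 refine Or.inr ?_
    exact Or.inl ⟨K, h1, hH⟩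
  · -- 4a
    have hce := Fintype.card_congr e
    rw [Fintype.card_fin, Fintype.card_prod, Fintype.card_fin, Fintype.card_fin] at hce
    have hn₁ : n₁ = 3 := by
      by_contra hcon
      have : 4 * 5 ≤ n₁ * n₂ := Nat.mul_le_mul (by omega) (by omega)
      omega
    subst hn₁
    obtain rfl : n₂ = 4 := by omega
    have h22 := two_ne_zero_of_odd h1
    by_cases hq : Fintype.card F = 3
    · obtain ⟨D, hD, hle⟩ := decomp_of_three (by norm_num) hq h4 h5 h6
      iterate 7 refine Or.inr ?_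
      exact Or.inl ⟨D, hD, fun i h => hmin ((Ctx.isPlus_iff_even hD (by decide) i).2 (Or.inl h)),
        c.of_le_decomp hH hle hD.decomp.decomp⟩
    · have hq5 : 5 ≤ Fintype.card F := by
        have := Fintype.one_lt_card (α := F)
        have := Nat.odd_iff.1 h1
        omega
      iterate 10 refine Or.inr ?_
      exact Or.inl ⟨h1, hq5, e, P, f₁, f₂, h4, h5, fun hp => hmin (isPlus_of_symm_tensor h22 h4.bilinear h5 h6 hp),
        h6, hH⟩
  · -- 4b
    exfalso
    have hce := Fintype.card_congr e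
    rw [Fintype.card_fin, Fintype.card_prod, Fintype.card_fin, Fintype.card_fin] at hce
    have hn₁ : n₁ = 2 ∨ n₁ = 3 := by
      by_contra hcon
      have : 4 * 5 ≤ n₁ * n₂ := Nat.mul_le_mul (by omega) (by omega)
      omega
    rcases hn₁ with rfl | rfl
    · exact hmin (isPlus_of_tensor (by norm_num) h6 (by rw [Fintype.card_fin, hce]))
    · have := Asch.even_card_of_isSymplecticForm h3
      rw [Fintype.card_fin] at this
      exact absurd this (by decide)
  · -- 5
    rcases h1.eq_two_or_odd' with rfl | hr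
    · exact absurd (isPlus_of_rational c.hQ h2 h3 h4 hc12 (by norm_num)) hmin
    · iterate 11 refine Or.inr ?_
      exact Or.inl ⟨F₀, r, P, ζ, h1, hr, h2, h3, h4, hH⟩
  · -- 6
    exfalso
    rw [Fintype.card_fin] at h10
    have hk : k < 4 := by
      by_contra hcon
      have : 2 ^ 4 ≤ 2 ^ k := Nat.pow_le_pow_right (by norm_num) (by omega)
      omega
    interval_cases k <;> omega
  · -- 7a
    exfalso
    have hce := Fintype.card_congr e
    rw [Fintype.card_fin, Fintype.card_fun, Fintype.card_fin, Fintype.card_fin] at hce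
    exact pow_ne_twelve h3 hce.symm
  · -- 7b
    exfalso
    have hce := Fintype.card_congr e
    rw [Fintype.card_fin, Fintype.card_fun, Fintype.card_fin, Fintype.card_fin] at hce
    exact pow_ne_twelve h1 hce.symm

end Cfsg.Agent.OCase
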