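import Cfsg.Agent.OCase.BurnsideIrr

/-!
Absolutely irreducible 2-groups of order `2 ^ (1 + 2 k)` with centre of order 2 in dimension `2 ^ k`:
non-central elements are conjugate to their negatives.
-/

set_option autoImplicit false
set_option linter.unusedSectionVars false

namespace Cfsg.Agent.OCase

open Module Cfsg.Geo Cfsg.Agent.Asch

open scoped Matrix MatrixGroups

variable {ι : Type} [Fintype ι] [DecidableEq ι] {F : Type*} [Field F]

/-- the central involution is `-1` -/
theorem exists_center_neg {R : Subgroup (GL ι F)} (habs : ActsAbsolutelyIrreducibly (matrixSet R))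
    (hZ : Nat.card (Subgroup.center R) = 2) :
    ∃ z : R, z ∈ Subgroup.center R ∧ ((z : GL ι F) : Matrix ι ι F) = -1 ∧ z * z = 1 ∧
      ∀ x ∈ Subgroup.center R, x = 1 ∨ x = z := by
  haveI : Finite (Subgroup.center R) := Nat.finite_of_card_ne_zero (by rw [hZ]; norm_num)
  obtain ⟨z, hz, hall⟩ : ∃ z : Subgroup.center R, z ≠ 1 ∧ ∀ x : Subgroup.center R, x = 1 ∨ x = z := by
    obtain ⟨x, y, hxy, huniv⟩ := Nat.card_eq_two_iff.1 hZ
    have hm : ∀ w : Subgroup.center R, w = x ∨ w = y := fun w => by
      have : w ∈ ({x, y} : Set (Subgroup.center R)) := by rw [huniv]; trivial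
      simpa using this
    rcases hm 1 with h1 | h1
    · exact ⟨y, fun h => hxy (h1.symm.trans h.symm), fun w => by rw [h1]; exact hm w⟩
    · refine ⟨x, fun h => hxy (h.trans h1), fun w => ?_⟩
      rw [h1]; exact (hm w).symm
  have hzz : z * z = 1 := by
    rcases hall (z * z) with h | h
    · exact h
    · exact absurd (mul_eq_left.1 h) hz
  have hzz' : (z : R) * (z : R) = 1 := congrArg Subtype.val hzz
  refine ⟨z, z.2, ?_, hzz', ?_⟩
  · obtain ⟨c, hc⟩ := habs.2 (((z : R) : GL ι F) : Matrix ι ι F) (by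
      rintro _ ⟨g, hg, rfl⟩
      have := Subgroup.mem_center_iff.1 z.2 ⟨g, hg⟩
      have := congrArg (fun x : R => ((x : GL ι F) : Matrix ι ι F)) this
      exact this.symm)
    rcases isEmpty_or_nonempty ι with hι | hι
    · exact Subsingleton.elim _ _
    obtain ⟨i⟩ := hι
    have hcc : c * c = 1 := by
      have h3 : (((z : R) : GL ι F) : Matrix ι ι F) * (((z : R) : GL ι F) : Matrix ι ι F) = 1 := by
        have := congrArg (fun x : R => ((x : GL ι F) : Matrix ι ι F)) hzz'
        exact this
      rw [hc] at h3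
      have := congrFun (congrFun h3 i) i
      simpa using this
    rcases mul_self_eq_one_iff.1 hcc with h | h
    · exfalso
      apply hz
      rw [h, one_smul] at hc
      exact Subtype.ext (Subtype.ext (Units.ext hc))
    · rw [hc, h, neg_smul, one_smul]
  · intro x hx
    rcases hall ⟨x, hx⟩ with h | h
    · exact Or.inl (congrArg Subtype.val h)
    · exact Or.inr (congrArg Subtype.val h)

/-- the matrix of an element of a group of matrices -/
def mt {R : Subgroup (GL ι F)} (x : R) : Matrix ι ι F := ((x : GL ι F) : Matrix ι ι F)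

theorem mt_mul {R : Subgroup (GL ι F)} (x y : R) : mt (x * y) = mt x * mt y := rfl

theorem mt_one {R : Subgroup (GL ι F)} : mt (1 : R) = 1 := rfl

/-- coordinates with respect to a transversal of the centre -/
theorem exists_coord {R : Subgroup (GL ι F)} (habs : ActsAbsolutelyIrreducibly (matrixSet R)) {k : ℕ}
    (hR : Nat.card R = 2 ^ (1 + 2 * k))
    (hZ : Nat.card (Subgroup.center R) = 2) (hι : Fintype.card ι = 2 ^ k) (a : R) :
    ∃ φ : Matrix ι ι F →ₗ[F] F, φ (mt a) ≠ 0 ∧ ∀ x : R, a⁻¹ * x ∉ Subgroup.center R → φ (mt x) = 0 := by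
  classical
  have hne : Nonempty ι := by
    rw [← Fintype.card_pos_iff, hι]; positivity
  haveI : Finite R := Nat.finite_of_card_ne_zero (by rw [hR]; positivity)
  obtain ⟨z, hzc, hz, hzz, hall⟩ := exists_center_neg habs hZ
  haveI : Fintype (R ⧸ Subgroup.center R) := Fintype.ofFinite _
  let b : R ⧸ Subgroup.center R → Matrix ι ι F := fun x => mt x.out
  have hsign : ∀ x : R, mt x = b (QuotientGroup.mk x) ∨ mt x = - b (QuotientGroup.mk x) := by
    intro x
    have h1 : (QuotientGroup.mk (Quotient.out (QuotientGroup.mk x : R ⧸ Subgroup.center R)) :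
      R ⧸ Subgroup.center R) = QuotientGroup.mk x := QuotientGroup.out_eq' _
    have h3 : (Quotient.out (QuotientGroup.mk x : R ⧸ Subgroup.center R))⁻¹ * x ∈ Subgroup.center R :=
      QuotientGroup.eq.1 h1
    rcases hall _ h3 with h4 | h4
    · left
      have : x = Quotient.out (QuotientGroup.mk x : R ⧸ Subgroup.center R) := by
        rw [inv_mul_eq_one] at h4; exact h4.symm
      exact congrArg mt this
    · right
      have : x = Quotient.out (QuotientGroup.mk x : R ⧸ Subgroup.center R) * z := by
        rw [← h4, mul_inv_cancel_left]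
      have h5 := congrArg mt this
      rw [h5, mt_mul]
      change _ * ((z : GL ι F) : Matrix ι ι F) = _
      rw [hz, mul_neg, mul_one]
  have hspan : ⊤ ≤ Submodule.span F (Set.range b) := by
    rw [← span_matrixSet_of_absIrred habs hne, Submodule.span_le]
    rintro _ ⟨g, hg, rfl⟩
    rcases hsign ⟨g, hg⟩ with h | h
    · rw [SetLike.mem_coe]
      change mt (⟨g, hg⟩ : R) ∈ _
      rw [h]; exact Submodule.subset_span ⟨_, rfl⟩
    · rw [SetLike.mem_coe]
      change mt (⟨g, hg⟩ : R) ∈ _
      rw [h]; exact Submodule.neg_mem _ (Submodule.subset_span ⟨_, rfl⟩)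
  have hcard : Fintype.card (R ⧸ Subgroup.center R) = finrank F (Matrix ι ι F) := by
    have h3 := Subgroup.card_eq_card_quotient_mul_card_subgroup (Subgroup.center R)
    rw [hR, hZ, Nat.card_eq_fintype_card] at h3
    rw [Module.finrank_matrix, Module.finrank_self, hι]
    have : 2 ^ (1 + 2 * k) = 2 ^ k * 2 ^ k * 1 * 2 := by ring
    rw [this] at h3
    exact (Nat.eq_of_mul_eq_mul_right (by norm_num) h3).symm
  have hli := linearIndependent_of_top_le_span_of_card_eq_finrank hspan hcard
  let B := Basis.mk hli hspan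
  have hB : ∀ x, B x = b x := fun x => Basis.mk_apply hli hspan x
  refine ⟨B.coord (QuotientGroup.mk a), ?_, ?_⟩
  · have h3 : B.coord (QuotientGroup.mk a) (b (QuotientGroup.mk a)) = 1 := by
      rw [← hB]
      change B.repr (B _) _ = 1
      rw [B.repr_self, Finsupp.single_apply, if_pos rfl]
    rcases hsign a with h | h
    · rw [h, h3]; exact one_ne_zero
    · rw [h, map_neg, h3]; exact neg_ne_zero.2 one_ne_zero
  · intro x hx
    have h3 : B.coord (QuotientGroup.mk a) (b (QuotientGroup.mk x)) = 0 := by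
      rw [← hB]
      change B.repr (B _) _ = 0
      rw [B.repr_self, Finsupp.single_apply, if_neg]
      intro h
      rw [eq_comm, QuotientGroup.eq] at h
      exact hx h
    rcases hsign x with h | h
    · rw [h, h3]
    · rw [h, map_neg, h3, neg_zero]

theorem exists_neg_conj {R : Subgroup (GL ι F)} (h2 : (2 : F) ≠ 0)
    (habs : ActsAbsolutelyIrreducibly (matrixSet R)) {k : ℕ} (hR : Nat.card R = 2 ^ (1 + 2 * k))
    (hZ : Nat.card (Subgroup.center R) = 2) (hι : Fintype.card ι = 2 ^ k) {a : R}
    (ha : a ∉ Subgroup.center R) : ∃ r : R, mt (r * a * r⁻¹) = -mt a := by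
  classical
  haveI : Finite R := Nat.finite_of_card_ne_zero (by rw [hR]; positivity)
  haveI : Fintype R := Fintype.ofFinite R
  obtain ⟨z, hzc, hz, hzz, hall⟩ := exists_center_neg habs hZ
  obtain ⟨φ, hφa, hφ0⟩ := exists_coord habs hR hZ hι a
  by_contra hcon
  push Not at hcon
  obtain ⟨c, hc⟩ := habs.2 (∑ g : R, mt (g * a * g⁻¹)) (by
    rintro _ ⟨x, hx, rfl⟩
    change (∑ g : R, mt (g * a * g⁻¹)) * mt (⟨x, hx⟩ : R) = mt (⟨x, hx⟩ : R) * ∑ g : R, mt (g * a * g⁻¹)
    generalize (⟨x, hx⟩ : R) = y
    rw [Finset.sum_mul, Finset.mul_sum]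
    refine Fintype.sum_equiv (Equiv.mulLeft y⁻¹) _ _ fun g => ?_
    rw [← mt_mul, ← mt_mul, Equiv.coe_mulLeft]
    congr 1
    group)
  have h3 : φ (∑ g : R, mt (g * a * g⁻¹)) = 0 := by
    rw [hc, map_smul]
    have : φ (1 : Matrix ι ι F) = 0 := by
      rw [← mt_one (R := R)]
      refine hφ0 1 ?_
      intro h
      apply ha
      rw [mul_one] at h
      exact (Subgroup.inv_mem_iff _).1 h
    rw [this, smul_zero]
  have h5 : ∀ g : R, φ (mt (g * a * g⁻¹)) = if g ∈ (Subgroup.centralizer {a} : Subgroup R) then φ (mt a) else 0 := by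
    intro g
    split_ifs with hg
    · rw [Subgroup.mem_centralizer_iff] at hg
      have := hg a rfl
      rw [← this, mul_inv_cancel_right]
    · refine hφ0 _ fun h => ?_
      rcases hall _ h with h6 | h6
      · apply hg
        rw [Subgroup.mem_centralizer_iff]
        rintro y rfl
        rw [inv_mul_eq_one] at h6
        exact (eq_mul_inv_iff_mul_eq.1 h6)
      · apply hcon g
        have h7 : g * a * g⁻¹ = a * z := by rw [← h6, mul_inv_cancel_left]
        rw [h7, mt_mul]
        change mt a * ((z : GL ι F) : Matrix ι ι F) = _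
        rw [hz, mul_neg, mul_one]
  have h4 : φ (∑ g : R, mt (g * a * g⁻¹)) = (Nat.card (Subgroup.centralizer {a} : Subgroup R) : F) * φ (mt a) := by
    rw [map_sum, Finset.sum_congr rfl fun g _ => h5 g, ← Finset.sum_filter, Finset.sum_const, nsmul_eq_mul]
    congr 2
    rw [Nat.card_eq_fintype_card, Fintype.card_subtype]
  rw [h3] at h4
  have h6 : (Nat.card (Subgroup.centralizer {a} : Subgroup R) : F) ≠ 0 := by
    have hdvd : Nat.card (Subgroup.centralizer {a} : Subgroup R) ∣ 2 ^ (1 + 2 * k) := by
      rw [← hR]; exact Subgroup.card_subgroup_dvd_card _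
    obtain ⟨j, -, hj⟩ := (Nat.dvd_prime_pow Nat.prime_two).1 hdvd
    rw [hj]
    push_cast
    exact pow_ne_zero _ h2
  exact (mul_ne_zero h6 hφa) h4.symm

end Cfsg.Agent.OCase
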