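import Cfsg.Agent.OCase.Irr
import Cfsg.Agent.OCase.Tens34
import Cfsg.Agent.AschCases.OrthNot
import Cfsg.Agent.AschCases.TensorTwo

/-! Over the field with two elements the stabiliser of a tensor decomposition `2 ⊗ n₂` into symplectic
factors is not maximal: it normalises a quadratic extension field. -/

set_option autoImplicit false
set_option linter.unusedSectionVars false

namespace Cfsg.Agent.OCase

open QuadraticMap Module Cfsg.Agent.Orth Cfsg.Geo OMax AschCases
open scoped Matrix Kronecker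

variable {ι : Type} [Fintype ι] [DecidableEq ι] {F : Type*} [Field F]

theorem tvc_surj {n₁ n₂ : ℕ} (e : ι ≃ Fin n₁ × Fin n₂) (P : Matrix.GeneralLinearGroup ι F) (v : ι → F) :
    ∃ w, tvc e P w = v := by
  refine ⟨(((P⁻¹ : Matrix.GeneralLinearGroup ι F) : Matrix ι ι F) *ᵥ v) ∘ e.symm, ?_⟩
  have h1 : ((((P⁻¹ : Matrix.GeneralLinearGroup ι F) : Matrix ι ι F) *ᵥ v) ∘ e.symm) ∘ e =
      ((P⁻¹ : Matrix.GeneralLinearGroup ι F) : Matrix ι ι F) *ᵥ v := by
    funext x; simp
  rw [tvc, h1, Matrix.mulVec_mulVec, ← Units.val_mul, mul_inv_cancel, Units.val_one, Matrix.one_mulVec]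

theorem tensAlg_act {n₁ n₂ : ℕ} (e : ι ≃ Fin n₁ × Fin n₂) (P : Matrix.GeneralLinearGroup ι F)
    (a : Matrix (Fin n₁) (Fin n₁) F) (x : Fin n₁ → F) (y : Fin n₂ → F) :
    tensAlg e P a *ᵥ tvc e P (ptens x y) = tvc e P (ptens (a *ᵥ x) y) := by
  have h0 : ptens (a *ᵥ x) y = (a ⊗ₖ (1 : Matrix (Fin n₂) (Fin n₂) F)) *ᵥ ptens x y := by
    rw [kron_mulVec, Matrix.one_mulVec]
  rw [h0, tensAlg_apply, tvc, tvc, ← Matrix.mulVec_mulVec, ← Matrix.mulVec_mulVec,
    Matrix.mulVec_mulVec (M := ((P⁻¹ : Matrix.GeneralLinearGroup ι F) : Matrix ι ι F)),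
    ← Units.val_mul, inv_mul_cancel, Units.val_one, Matrix.one_mulVec]
  congr 1
  rw [Matrix.reindex_apply, Matrix.submatrix_mulVec_equiv]
  congr 2
  funext p
  simp

variable [Fintype F]

theorem sp2_not_maximal (hq : Fintype.card F = 2) (Q : QuadraticForm F (ι → F))
    (hQ : (QuadraticMap.polarBilin Q).Nondegenerate) (hfr : 7 ≤ Fintype.card ι)
    (n₂ : ℕ) (h2 : 2 < n₂) (e : ι ≃ Fin 2 × Fin n₂) (P : Matrix.GeneralLinearGroup ι F)
    (f₁ : (Fin 2 → F) → (Fin 2 → F) → F) (f₂ : (Fin n₂ → F) → (Fin n₂ → F) → F)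
    (hf₁ : Cfsg.Geo.IsSymplecticForm f₁) (hf₂ : Cfsg.Geo.IsSymplecticForm f₂)
    (hT' : Cfsg.Geo.IsTensorFormStructure id (QuadraticMap.polar Q) f₁ f₂ e P)
    (hpure : ∀ (x₁ : Fin 2 → F) (x₂ : Fin n₂ → F), Q (Matrix.mulVec (P : Matrix ι ι F)
      ((fun a : Fin 2 × Fin n₂ => x₁ a.1 * x₂ a.2) ∘ e)) = 0) :
    ∃ K : Subgroup (Matrix.GeneralLinearGroup ι F),
      Cfsg.Geo.tensorProductSubgroup 2 n₂ e P ⊓ Cfsg.Geo.omegaGL ⇑Q < K ∧
        K < Cfsg.Geo.omegaGL ⇑Q := by
  classical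
  have h11 : (1 : F) + 1 = 0 := two_field_one_add_one hq
  have hdb : ∀ a : F, a + a = 0 := fun a => by
    calc a + a = a * (1 + 1) := by ring
      _ = 0 := by rw [h11, mul_zero]
  have hdv : ∀ a : ι → F, a + a = 0 := fun a => funext fun i => hdb (a i)
  have hne1 : ∀ a : F, a ≠ 0 → a = 1 := fun a ha => (two_field_cases hq a).resolve_left ha
  obtain ⟨c, hc, hform⟩ := tens_form hf₁.bilinear hf₂.bilinear hT'
  set τ : (Fin 2 → F) → (Fin n₂ → F) → (ι → F) := fun x y => tvc e P (ptens x y) with hτdef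
  have hτ : Tau τ := tau_std e P
  have hΦ : ∀ x y x' y', polar Q (τ x y) (τ x' y') = c * (f₁ x x' * f₂ y y') := hform
  have hpure' : ∀ x y, Q (τ x y) = 0 := fun x y => hpure x y
  set e0 : Fin 2 → F := Pi.single 0 1 with he0
  set e1 : Fin 2 → F := Pi.single 1 1 with he1
  have hc1 : c = 1 := hne1 c hc
  -- the value of the first form
  have hexp : ∀ v : ι → F, ∃ a b, v = τ e0 a + τ e1 b := by
    intro v
    obtain ⟨w, rfl⟩ := tvc_surj e P v
    refine ⟨fun j => w (0, j), fun j => w (1, j), ?_⟩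
    rw [tvc_eq_sum, Fin.sum_univ_two]
  have hf01 : f₁ e0 e1 = 1 := by
    apply hne1
    intro h0
    have hx : ∀ x : Fin 2 → F, x = x 0 • e0 + x 1 • e1 := by
      intro x
      funext i
      fin_cases i <;> simp [he0, he1]
    have hz : ∀ x : Fin 2 → F, f₁ e0 x = 0 := by
      intro x
      rw [hx x, hf₁.bilinear.add_right, hf₁.bilinear.smul_right, hf₁.bilinear.smul_right, hf₁.alternating, h0]
      simp
    obtain ⟨-, y, hy⟩ := hf₁.nondegenerate e0 (by
      intro h; have := congrFun h 0; simp [he0] at this)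
    exact hy (hz y)
  have hf10 : f₁ e1 e0 = 1 := by
    have h3 := hf₁.alternating (e0 + e1)
    rw [hf₁.bilinear.add_left, hf₁.bilinear.add_right, hf₁.bilinear.add_right, hf₁.alternating, hf₁.alternating,
      hf01] at h3
    linear_combination h3 - h11
  have hsym : ∀ a b, f₂ a b = f₂ b a := by
    intro a b
    have h3 := hf₂.alternating (a + b)
    rw [hf₂.bilinear.add_left, hf₂.bilinear.add_right, hf₂.bilinear.add_right, hf₂.alternating, hf₂.alternating] at h3
    have h4 := hdb (f₂ b a)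
    linear_combination h3 - h4
  have hQv : ∀ a b, Q (τ e0 a + τ e1 b) = f₂ a b := by
    intro a b
    rw [qadd, hpure', hpure', hΦ, hf01, hc1]; ring
  -- the field of order four
  set J : Matrix ι ι F := tensAlg e P (omegaM F) with hJdef
  have hω0 : omegaM F *ᵥ e0 = e1 := by
    funext i
    fin_cases i <;> simp [omegaM, he0, he1]
  have hω1 : omegaM F *ᵥ e1 = e0 + e1 := by
    funext i
    fin_cases i <;> simp [omegaM, he0, he1]
  have hJe0 : ∀ y, J *ᵥ τ e0 y = τ e1 y := fun y => by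
    have := tensAlg_act e P (omegaM F) e0 y
    rw [hω0] at this
    exact this
  have hJe1 : ∀ y, J *ᵥ τ e1 y = τ e0 y + τ e1 y := fun y => by
    have := tensAlg_act e P (omegaM F) e1 y
    rw [hω1] at this
    rw [← hτ.add_left]
    exact this
  have hJ : ∀ a b, J *ᵥ (τ e0 a + τ e1 b) = τ e0 b + τ e1 (a + b) := by
    intro a b
    rw [Matrix.mulVec_add, hJe0, hJe1, hτ.add_right]
    abel
  have hJ2 : ∀ v, J *ᵥ (J *ᵥ v) = J *ᵥ v + v := by
    intro v
    obtain ⟨a, b, rfl⟩ := hexp v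
    rw [hJ, hJ, hτ.add_right, hτ.add_right, hτ.add_right]
    have h3 := hdv (τ e1 b)
    have h4 : τ e0 a + τ e0 b + (τ e1 b + (τ e1 a + τ e1 b)) = τ e0 a + τ e0 b + τ e1 a + (τ e1 b + τ e1 b) := by abel
    rw [h4, h3]
    have h5 : τ e0 b + (τ e1 a + τ e1 b) + (τ e0 a + τ e1 b) = τ e0 a + τ e0 b + τ e1 a + (τ e1 b + τ e1 b) := by abel
    rw [h5, h3]
  have hJQ : ∀ v, Q (J *ᵥ v) = Q v := by
    intro v
    obtain ⟨a, b, rfl⟩ := hexp v
    rw [hJ, hQv, hQv, hf₂.bilinear.add_right, hf₂.alternating, add_zero, hsym]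
  have hJB : ∀ v w, polar Q (J *ᵥ v) (J *ᵥ w) = polar Q v w := by
    intro v w
    rw [polar, polar, ← Matrix.mulVec_add, hJQ, hJQ, hJQ]
  have hvJ : ∀ v, polar Q v (J *ᵥ v) = Q v := by
    intro v
    have h3 : Q (J *ᵥ (J *ᵥ v)) = Q v := by rw [hJQ, hJQ]
    rw [hJ2, qadd, hJQ, pc] at h3
    have h4 := hdb (Q v)
    linear_combination h3 - h4
  -- the two vectors
  obtain ⟨y0, hy0⟩ : ∃ y : Fin n₂ → F, y ≠ 0 := ⟨fun _ => 1, fun h => one_ne_zero (congrFun h ⟨0, by omega⟩)⟩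
  obtain ⟨-, y1, hy1⟩ := hf₂.nondegenerate y0 hy0
  have hy1 : f₂ y0 y1 = 1 := hne1 _ hy1
  have hy10 : f₂ y1 y0 = 1 := by rw [hsym]; exact hy1
  obtain ⟨v, hv⟩ : ∃ v, v = τ e0 y0 + τ e1 y1 := ⟨_, rfl⟩
  have hv1 : Q v = 1 := by rw [hv, hQv, hy1]
  have hJv1 : Q (J *ᵥ v) = 1 := by rw [hJQ, hv1]
  have hvn : Q v ≠ 0 := by rw [hv1]; exact one_ne_zero
  have hJvn : Q (J *ᵥ v) ≠ 0 := by rw [hJv1]; exact one_ne_zero
  have hBv : polar Q v (J *ᵥ v) = 1 := by rw [hvJ, hv1]
  have hBv' : polar Q (J *ᵥ v) v = 1 := by rw [pc, hBv]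
  set g : OGrp Q := refl Q v hvn * refl Q (J *ᵥ v) hJvn with hg
  have hgx : ∀ x, (g : (ι → F) ≃ₗ[F] (ι → F)) x = x + polar Q x (J *ᵥ v) • (J *ᵥ v) +
      (polar Q x v + polar Q x (J *ᵥ v)) • v := by
    intro x
    rw [hg, coe_mul_apply, refl_apply, refl_apply, hv1, hJv1, pdl, psl, hBv']
    simp only [div_one, mul_one, inv_one]
    have h6 : ∀ z : ι → F, -z = z := fun z => by
      rw [neg_eq_iff_add_eq_zero]; exact hdv z
    have h7 : ∀ z z' : ι → F, z - z' = z + z' := fun z z' => by rw [sub_eq_add_neg, h6]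
    have h8 : ∀ z z' : F, z - z' = z + z' := fun z z' => by
      rw [sub_eq_add_neg, neg_eq_of_add_eq_zero_left (hdb z')]
    rw [h7, h7, h8]
    simp only [one_mul]
  -- it maps `v` to `J v`, hence lies in the commutator subgroup
  have hgv : (g : (ι → F) ≃ₗ[F] (ι → F)) v = J *ᵥ v := by
    rw [hgx, hBv, pself, hv1]
    have : (2 : F) = 0 := by rw [← one_add_one_eq_two]; exact h11
    rw [this]
    simp only [one_smul, zero_mul, zero_add]
    have h5 : v + J *ᵥ v + v = J *ᵥ v + (v + v) := by abel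
    rw [h5, hdv, add_zero]
  have hgΩ : g ∈ commutator (OGrp Q) := by
    have h3 : refl Q (J *ᵥ v) hJvn = g * refl Q v hvn * g⁻¹ := by
      rw [refl_conj]
      congr 1
      exact hgv.symm
    have h4 : g = refl Q v hvn * g * (refl Q v hvn)⁻¹ * g⁻¹ := by
      rw [refl_inv]
      have h5 : refl Q v hvn * g * refl Q v hvn * g⁻¹ = refl Q v hvn * (g * refl Q v hvn * g⁻¹) := by group
      rw [h5, ← h3]
    rw [h4]
    exact Subgroup.commutator_mem_commutator (Subgroup.mem_top (refl Q v hvn)) (Subgroup.mem_top g)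
  have hgJ : ∀ x, (g : (ι → F) ≃ₗ[F] (ι → F)) (J *ᵥ x) = J *ᵥ ((g : (ι → F) ≃ₗ[F] (ι → F)) x) := by
    intro x
    have h6 : polar Q (J *ᵥ x) v = polar Q x v + polar Q x (J *ᵥ v) := by
      have h7 : polar Q (J *ᵥ x) (J *ᵥ (J *ᵥ v)) = polar Q x (J *ᵥ v) := hJB _ _
      rw [hJ2, par, hJB] at h7
      have h8 := hdb (polar Q x v)
      linear_combination h7 - h8
    have h12 : J *ᵥ (x + polar Q x (J *ᵥ v) • (J *ᵥ v) + (polar Q x v + polar Q x (J *ᵥ v)) • v) =
        J *ᵥ x + polar Q x (J *ᵥ v) • (J *ᵥ v + v) + (polar Q x v + polar Q x (J *ᵥ v)) • (J *ᵥ v) := by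
      rw [Matrix.mulVec_add, Matrix.mulVec_add, Matrix.mulVec_smul, Matrix.mulVec_smul, hJ2]
    rw [hgx, hgx, h12, h6, hJB]
    have h9 := hdv (polar Q x (J *ᵥ v) • J *ᵥ v)
    have h10 : polar Q x v + polar Q x (J *ᵥ v) + polar Q x v = polar Q x (J *ᵥ v) := by
      have := hdb (polar Q x v)
      linear_combination this
    rw [h10, smul_add, add_smul]
    have h13 : J *ᵥ x + (polar Q x (J *ᵥ v) • J *ᵥ v + polar Q x (J *ᵥ v) • v) +
        (polar Q x v • J *ᵥ v + polar Q x (J *ᵥ v) • J *ᵥ v) = J *ᵥ x + polar Q x v • J *ᵥ v + polar Q x (J *ᵥ v) • v +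
        (polar Q x (J *ᵥ v) • J *ᵥ v + polar Q x (J *ᵥ v) • J *ᵥ v) := by abel
    rw [h13, h9, add_zero]
  have hK := omegaAlg_isField (F := F) hq
  have hinj := tensAlg_injective (by omega : 0 < n₂) e P
  set K : Subalgebra F (Matrix ι ι F) := (omegaAlg hq).map (tensAlg e P) with hKdef
  have hKf : IsFieldSubalgebra 2 K := by
    refine ⟨?_, ?_, ?_⟩
    · rintro _ ⟨x, hx, rfl⟩ _ ⟨y, hy, rfl⟩
      show tensAlg e P x * tensAlg e P y = tensAlg e P y * tensAlg e P x
      rw [← _root_.map_mul, hK.comm x hx y hy, _root_.map_mul]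
    · rintro _ ⟨x, hx, rfl⟩ hne
      have hx0 : x ≠ 0 := by
        rintro rfl
        apply hne
        exact map_zero (tensAlg e P)
      obtain ⟨y, hy, hxy⟩ := hK.inv x hx hx0
      exact ⟨tensAlg e P y, ⟨y, hy, rfl⟩, by
        show tensAlg e P x * tensAlg e P y = 1
        rw [← _root_.map_mul, hxy, _root_.map_one]⟩
    · have h1 := ((omegaAlg (F := F) hq).equivMapOfInjective (tensAlg e P) hinj).toLinearEquiv.finrank_eq
      rw [← h1, hK.finrank_eq]
  have hcomm : (toGL g : Matrix ι ι F) * J = J * (toGL g : Matrix ι ι F) := by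
    apply matrix_eq_of_mulVec
    intro x
    rw [← Matrix.mulVec_mulVec, ← Matrix.mulVec_mulVec, toGL_mulVec, toGL_mulVec, hgJ]
  have hcommK : ∀ k ∈ K, (toGL g : Matrix ι ι F) * k = k * (toGL g : Matrix ι ι F) := by
    rintro _ ⟨_, ⟨x, y, rfl⟩, rfl⟩
    change (toGL g : Matrix ι ι F) * tensAlg e P _ = tensAlg e P _ * (toGL g : Matrix ι ι F)
    have hk : (!![x, y; y, x + y] : Matrix (Fin 2) (Fin 2) F) = x • (1 : Matrix (Fin 2) (Fin 2) F) + y • omegaM F := by
      ext i j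
      fin_cases i <;> fin_cases j <;> simp [omegaM]
    rw [hk, map_add, map_smul, map_smul, map_one, mul_add, add_mul]
    rw [Matrix.mul_smul, Matrix.mul_smul, Matrix.smul_mul, Matrix.smul_mul, ← hJdef, hcomm, mul_one, one_mul]
  refine exists_between (Q := Q) (M' := subalgebraNormalizer K) ?_ ⟨g, hgΩ, ?_, ?_⟩
    (OrthNot.not_le_subalgebraNormalizer hQ hfr le_rfl K hKf)
  · -- containment
    refine le_trans inf_le_left ?_
    have key : ∀ g ∈ tensorProductSubgroup 2 n₂ e P, ∀ k ∈ (omegaAlg hq).map (tensAlg e P),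
        (g : Matrix ι ι F) * k * ((g⁻¹ : Matrix.GeneralLinearGroup ι F) : Matrix ι ι F) ∈
          (omegaAlg hq).map (tensAlg e P) := by
      rintro g hg _ ⟨k, hk, rfl⟩
      obtain ⟨a, ha⟩ := tensAlg_conj e P g hg
      exact ⟨_, omegaAlg_conj hq a k hk, (ha k).symm⟩
    intro g hg k
    refine ⟨key g hg k, fun h => ?_⟩
    have h1 := key g⁻¹ ((tensorProductSubgroup 2 n₂ e P).inv_mem hg) _ h
    rw [inv_inv] at h1
    have h3 : ((g⁻¹ : Matrix.GeneralLinearGroup ι F) : Matrix ι ι F) * (g : Matrix ι ι F) = 1 := by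
      rw [← Units.val_mul, inv_mul_cancel, Units.val_one]
    have h4 : ((g⁻¹ : Matrix.GeneralLinearGroup ι F) : Matrix ι ι F) * ((g : Matrix ι ι F) * k *
        ((g⁻¹ : Matrix.GeneralLinearGroup ι F) : Matrix ι ι F)) * (g : Matrix ι ι F) = k := by
      calc _ = (((g⁻¹ : Matrix.GeneralLinearGroup ι F) : Matrix ι ι F) * (g : Matrix ι ι F)) * k *
          (((g⁻¹ : Matrix.GeneralLinearGroup ι F) : Matrix ι ι F) * (g : Matrix ι ι F)) := by simp only [mul_assoc]
        _ = k := by rw [h3, one_mul, mul_one]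
    rwa [h4] at h1
  · intro k
    have h3 : ((toGL g : Matrix.GeneralLinearGroup ι F) : Matrix ι ι F) *
        (((toGL g)⁻¹ : Matrix.GeneralLinearGroup ι F) : Matrix ι ι F) = 1 := by
      rw [← Units.val_mul, mul_inv_cancel, Units.val_one]
    have h3' : (((toGL g)⁻¹ : Matrix.GeneralLinearGroup ι F) : Matrix ι ι F) *
        ((toGL g : Matrix.GeneralLinearGroup ι F) : Matrix ι ι F) = 1 := by
      rw [← Units.val_mul, inv_mul_cancel, Units.val_one]
    constructor
    · intro hk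
      rw [hcommK k hk, mul_assoc, h3, mul_one]
      exact hk
    · intro hk
      have h5 := hcommK _ hk
      -- g (g k g⁻¹) = (g k g⁻¹) g = g k, so g k g⁻¹ = k
      have h6 : ((toGL g : Matrix.GeneralLinearGroup ι F) : Matrix ι ι F) * k *
          (((toGL g)⁻¹ : Matrix.GeneralLinearGroup ι F) : Matrix ι ι F) = k := by
        have h7 : (((toGL g)⁻¹ : Matrix.GeneralLinearGroup ι F) : Matrix ι ι F) * (((toGL g : Matrix.GeneralLinearGroup ι F) :
            Matrix ι ι F) * (((toGL g : Matrix.GeneralLinearGroup ι F) : Matrix ι ι F) * k *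
          (((toGL g)⁻¹ : Matrix.GeneralLinearGroup ι F) : Matrix ι ι F))) =
            (((toGL g)⁻¹ : Matrix.GeneralLinearGroup ι F) : Matrix ι ι F) * (((toGL g : Matrix.GeneralLinearGroup ι F) :
            Matrix ι ι F) * k * (((toGL g)⁻¹ : Matrix.GeneralLinearGroup ι F) : Matrix ι ι F) *
            ((toGL g : Matrix.GeneralLinearGroup ι F) : Matrix ι ι F)) := by rw [h5]
        calc _ = (((toGL g)⁻¹ : Matrix.GeneralLinearGroup ι F) : Matrix ι ι F) * (((toGL g : Matrix.GeneralLinearGroup ι F) :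
            Matrix ι ι F) * (((toGL g : Matrix.GeneralLinearGroup ι F) : Matrix ι ι F) * k *
          (((toGL g)⁻¹ : Matrix.GeneralLinearGroup ι F) : Matrix ι ι F))) := by
              rw [← mul_assoc (((toGL g)⁻¹ : Matrix.GeneralLinearGroup ι F) : Matrix ι ι F), h3', one_mul]
          _ = _ := h7
          _ = ((((toGL g)⁻¹ : Matrix.GeneralLinearGroup ι F) : Matrix ι ι F) * ((toGL g : Matrix.GeneralLinearGroup ι F) :
            Matrix ι ι F)) * k * ((((toGL g)⁻¹ : Matrix.GeneralLinearGroup ι F) : Matrix ι ι F) *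
            ((toGL g : Matrix.GeneralLinearGroup ι F) : Matrix ι ι F)) := by simp only [mul_assoc]
          _ = k := by rw [h3', one_mul, mul_one]
      rwa [h6] at hk
  · -- not in the tensor subgroup
    intro hmem
    obtain ⟨A, B, hAB⟩ := tens_act hmem
    have hAB' : ∀ x y, (g : (ι → F) ≃ₗ[F] (ι → F)) (τ x y) = τ ((A : Matrix (Fin 2) (Fin 2) F) *ᵥ x)
        ((B : Matrix (Fin n₂) (Fin n₂) F) *ᵥ y) := fun x y => by
      have := hAB x y
      rw [toGL_mulVec] at this
      exact this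
    have hJv : J *ᵥ v = τ e0 y1 + τ e1 (y0 + y1) := by rw [hv]; exact hJ _ _
    -- a vector orthogonal to y0, y1
    obtain ⟨y, hy, hyy0, hyy1⟩ : ∃ y : Fin n₂ → F, y ≠ 0 ∧ f₂ y y0 = 0 ∧ f₂ y y1 = 0 := by
      let L : (Fin n₂ → F) →ₗ[F] (Fin 2 → F) :=
        { toFun := fun y i => if i = 0 then f₂ y y0 else f₂ y y1
          map_add' := fun y y' => by
            funext i
            by_cases hi : i = 0
            · simp [hi, hf₂.bilinear.add_left]
            · simp [hi, hf₂.bilinear.add_left]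
          map_smul' := fun a y => by
            funext i
            by_cases hi : i = 0
            · simp [hi, hf₂.bilinear.smul_left]
            · simp [hi, hf₂.bilinear.smul_left] }
      have hker : LinearMap.ker L ≠ ⊥ := by
        intro h
        have h3 := LinearMap.finrank_le_finrank_of_injective (LinearMap.ker_eq_bot.1 h)
        rw [finrank_fin_fun, finrank_fin_fun] at h3
        omega
      obtain ⟨y, hyL, hy0⟩ := Submodule.exists_mem_ne_zero_of_ne_bot hker
      have h4 := congrFun (LinearMap.mem_ker.1 hyL) 0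
      have h5 := congrFun (LinearMap.mem_ker.1 hyL) 1
      exact ⟨y, hy0, by simpa [L] using h4, by simpa [L] using h5⟩
    have hf00 : f₁ e0 e0 = 0 := hf₁.alternating e0
    have h3 : (g : (ι → F) ≃ₗ[F] (ι → F)) (τ e0 y) = τ e0 y := by
      have h4 : polar Q (τ e0 y) v = 0 := by
        rw [hv, par, hΦ, hΦ, hf00, hyy1]; ring
      have h5 : polar Q (τ e0 y) (J *ᵥ v) = 0 := by
        rw [hJv, par, hΦ, hΦ, hf00, hf₂.bilinear.add_right, hyy0, hyy1]; ring
      rw [hgx, h4, h5]; simp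
    rw [hAB'] at h3
    have he0n : e0 ≠ 0 := by intro h; have := congrFun h 0; simp [he0] at this
    obtain ⟨ν, hν1, hν2⟩ := hτ.inj _ _ _ _ h3 he0n hy
    have hν : ν = 1 := by
      apply hne1
      rintro rfl
      rw [zero_smul] at hν2
      exact hy hν2
    rw [hν, one_smul] at hν1
    have h6 : (g : (ι → F) ≃ₗ[F] (ι → F)) (τ e0 y0) = τ (e0 + e1) (y0 + y1) := by
      have h4 : polar Q (τ e0 y0) v = 1 := by
        rw [hv, par, hΦ, hΦ, hf00, hy1, hf01, hc1]; ring
      have h5 : polar Q (τ e0 y0) (J *ᵥ v) = 1 := by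
        rw [hJv, par, hΦ, hΦ, hf00, hf₂.bilinear.add_right, hf₂.alternating, hy1, hf01, hc1]; ring
      rw [hgx, h4, h5, hJv, h11, hτ.add_left, hτ.add_right, hτ.add_right]
      simp only [one_smul, zero_smul, add_zero]
      abel
    rw [hAB', hν1] at h6
    have h7 : e0 + e1 ≠ (0 : Fin 2 → F) := by
      intro h; have := congrFun h 0; simp [he0, he1] at this
    have h8 : y0 + y1 ≠ 0 := by
      intro h
      have := hf₂.bilinear.add_right y0 y0 y1
      rw [h, hf₂.alternating, hy1] at this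
      have h9 : f₂ y0 0 = 0 := by
        have := hf₂.bilinear.smul_right 0 y0 0
        simpa using this
      rw [h9, zero_add] at this
      exact zero_ne_one this
    obtain ⟨μ, hμ1, -⟩ := hτ.inj _ _ _ _ h6 h7 h8
    have h9 := congrFun hμ1 0
    have h10 := congrFun hμ1 1
    simp [he0, he1] at h9 h10
    rw [← h10] at h9
    exact one_ne_zero h9

end Cfsg.Agent.OCase
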