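import Cfsg.Agent.OCase.RankOne
import Cfsg.Agent.OCase.Tens34
import Cfsg.Agent.Asch.FormOfGram
import Cfsg.Agent.Asch.OrthMain

/-!
Class 4 with a symmetric factor of dimension four and plus type: contained in a symplectic tensor decomposition.
-/

set_option autoImplicit false
set_option linter.unusedSectionVars false

namespace Cfsg.Agent.OCase

open QuadraticMap Module Cfsg.Agent.Orth Cfsg.Geo Cfsg.Agent.OMax
open scoped Matrix Kronecker

section hyp

variable {F : Type*} [Field F] [Fintype F]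

theorem exists_hyp4 (h2 : (2 : F) ≠ 0) {f₂ : (Fin 4 → F) → (Fin 4 → F) → F} (hf₂ : IsSymmetricForm f₂)
    (hp : IsPlusTypeOn (fun v : Fin 4 → F => f₂ v v) ⊤) : ∃ b ν, Hyp4 f₂ b ν := by
  set q := qOfBil hf₂.bilinear with hq
  have hpol : ∀ x y, polar q x y = 2 * f₂ x y := qOfBil_polar hf₂.bilinear hf₂.symm
  have hnd : (polarBilin q).Nondegenerate := by
    have h1 : ∀ x, (∀ y, polar q x y = 0) → x = 0 := by
      intro x hx
      by_contra h0
      obtain ⟨-, ⟨y, hy⟩⟩ := hf₂.nondegenerate x h0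
      have h3 := hx y
      rw [hpol] at h3
      exact hy ((mul_eq_zero.1 h3).resolve_left h2)
    exact ⟨fun x hx => h1 x hx, fun x hx => h1 x fun y => by rw [pc]; exact hx y⟩
  have hpl : IsPlus q := isPlusTypeOn_top_iff.1 hp
  obtain ⟨g, hg⟩ := hpl.exists_isom hnd (m := 2) (by rw [finrank_fin_fun])
  have hform : ∀ x y, 2 * f₂ (g x) (g y) = ∑ i : Fin 2, (x (.inl i) * y (.inr i) + x (.inr i) * y (.inl i)) := by
    intro x y
    rw [← hpol]
    have h3 : polar q (g x) (g y) = polar (qfPlus 2 F) x y := by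
      simp only [polar, ← map_add, hg]
    rw [h3, polar_qfPlus]
    exact Finset.sum_congr rfl fun i _ => by ring
  have hform' : ∀ x y, f₂ (g x) (g y) = (2 : F)⁻¹ * ∑ i : Fin 2, (x (.inl i) * y (.inr i) + x (.inr i) * y (.inl i)) := by
    intro x y
    rw [← hform, inv_mul_cancel_left₀ h2]
  refine ⟨fun a w => ![![g (Pi.single (.inl 0) 1), g (Pi.single (.inl 1) 1)],
    ![g (Pi.single (.inr 1) (-1)), g (Pi.single (.inr 0) 1)]] a w, (2 : F)⁻¹, ?_⟩
  exact
    { add_left := hf₂.bilinear.add_left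
      smul_left := hf₂.bilinear.smul_left
      add_right := hf₂.bilinear.add_right
      smul_right := fun c x y => hf₂.bilinear.smul_right c x y
      ne := inv_ne_zero h2
      g01 := by simp [hform']
      g10 := by simp [hform']
      h01 := by simp [hform']
      h10 := by simp [hform']
      s0 := by simp [hform']
      s1 := by simp [hform']
      s2 := by simp [hform']
      s3 := by simp [hform']
      z1 := by simp [hform']
      z2 := by simp [hform']
      z3 := by simp [hform']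
      z4 := by simp [hform']
      z5 := by simp [hform']
      z6 := by simp [hform']
      z7 := by simp [hform']
      z8 := by simp [hform']
      span := by
        intro x
        obtain ⟨y, rfl⟩ := g.surjective x
        refine ⟨![![y (.inl 0), y (.inl 1)], ![- y (.inr 1), y (.inr 0)]], ?_⟩
        simp only [Matrix.cons_val_zero, Matrix.cons_val_one, Matrix.cons_val_fin_one, ← map_smul, ← map_add]
        congr 1
        funext i
        rcases i with i | i <;> fin_cases i <;> simp }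

end hyp


section spaces

variable {ι : Type} [Fintype ι] [DecidableEq ι] {F : Type*} [Field F] [Fintype F]
  {n₁ n₂ : ℕ} {e : ι ≃ Fin n₁ × Fin n₂} {P : Matrix.GeneralLinearGroup ι F}

/-- the map from families of vectors of the second factor -/
noncomputable def fam (e : ι ≃ Fin n₁ × Fin n₂) (P : Matrix.GeneralLinearGroup ι F) (U : Submodule F (Fin n₂ → F)) :
    (Fin n₁ → U) →ₗ[F] (ι → F) where
  toFun y := tvc e P (fun p => (y p.1 : Fin n₂ → F) p.2)
  map_add' y y' := by rw [← tvc_add]; rfl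
  map_smul' c y := by rw [RingHom.id_apply, ← tvc_smul]; rfl

theorem fam_apply (U : Submodule F (Fin n₂ → F)) (y : Fin n₁ → U) :
    fam e P U y = tvc e P (fun p => (y p.1 : Fin n₂ → F) p.2) := rfl

theorem fam_inj (U : Submodule F (Fin n₂ → F)) : Function.Injective (fam e P U) := by
  intro y y' h
  have h1 := tvc_inj h
  funext i
  refine Subtype.ext (funext fun j => ?_)
  exact congrFun h1 (i, j)

/-- `F^{n₁} ⊗ U` -/
noncomputable def TU (e : ι ≃ Fin n₁ × Fin n₂) (P : Matrix.GeneralLinearGroup ι F) (U : Submodule F (Fin n₂ → F)) :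
    Submodule F (ι → F) := LinearMap.range (fam e P U)

theorem finrank_TU (U : Submodule F (Fin n₂ → F)) : finrank F (TU e P U) = n₁ * finrank F U := by
  rw [TU, LinearMap.finrank_range_of_inj (fam_inj U), Module.finrank_pi_fintype, Finset.sum_const, Finset.card_univ,
    Fintype.card_fin, smul_eq_mul]

theorem TU_inf (U U' : Submodule F (Fin n₂ → F)) : TU e P U ⊓ TU e P U' = TU e P (U ⊓ U') := by
  apply le_antisymm
  · rintro _ ⟨⟨y, rfl⟩, ⟨y', hy'⟩⟩
    have h1 := tvc_inj hy'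
    have h2 : ∀ i, ((y' i : Fin n₂ → F)) = (y i : Fin n₂ → F) := fun i => funext fun j => congrFun h1 (i, j)
    exact ⟨fun i => ⟨(y i : Fin n₂ → F), (y i).2, by rw [← h2]; exact (y' i).2⟩, rfl⟩
  · rintro _ ⟨y, rfl⟩
    exact ⟨⟨fun i => ⟨(y i : Fin n₂ → F), (y i).2.1⟩, rfl⟩, ⟨fun i => ⟨(y i : Fin n₂ → F), (y i).2.2⟩, rfl⟩⟩

theorem tau_mem_TU {U : Submodule F (Fin n₂ → F)} (x : Fin n₁ → F) {y : Fin n₂ → F} (hy : y ∈ U) :
    tvc e P (ptens x y) ∈ TU e P U :=
  ⟨fun i => ⟨x i • y, U.smul_mem _ hy⟩, by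
    rw [fam_apply]
    congr 1⟩

theorem fam_eq_sum (U : Submodule F (Fin n₂ → F)) (y : Fin n₁ → U) :
    fam e P U y = ∑ i, tvc e P (ptens (Pi.single i (1 : F)) (y i : Fin n₂ → F)) := by
  rw [fam_apply, tvc_eq_sum]

end spaces


section lines

variable {F E : Type*} [Field F] [AddCommGroup E] [Module F E] {f : E → E → F} {b : Fin 2 → Fin 2 → E} {ν : F}

def btR (b : Fin 2 → Fin 2 → E) (v : Fin 2 → F) : (Fin 2 → F) →ₗ[F] E where
  toFun w := bt b v w
  map_add' := bt_add_right b v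
  map_smul' c w := bt_smul_right b c v w

def btL (b : Fin 2 → Fin 2 → E) (w : Fin 2 → F) : (Fin 2 → F) →ₗ[F] E where
  toFun v := bt b v w
  map_add' v v' := bt_add_left b v v' w
  map_smul' c v := bt_smul_left b c v w

theorem Hyp4.btR_inj (h : Hyp4 f b ν) {v : Fin 2 → F} (hv : v ≠ 0) : Function.Injective (btR b v) := by
  rw [← LinearMap.ker_eq_bot, LinearMap.ker_eq_bot']
  intro w hw
  by_contra h0
  exact h.ne_zero hv h0 hw

theorem Hyp4.btL_inj (h : Hyp4 f b ν) {w : Fin 2 → F} (hw : w ≠ 0) : Function.Injective (btL b w) := by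
  rw [← LinearMap.ker_eq_bot, LinearMap.ker_eq_bot']
  intro v hv
  by_contra h0
  exact h.ne_zero h0 hw hv

theorem Hyp4.finrank_R (h : Hyp4 f b ν) {v : Fin 2 → F} (hv : v ≠ 0) : finrank F (LinearMap.range (btR b v)) = 2 := by
  rw [LinearMap.finrank_range_of_inj (h.btR_inj hv), finrank_fin_fun]

theorem Hyp4.finrank_L (h : Hyp4 f b ν) {w : Fin 2 → F} (hw : w ≠ 0) : finrank F (LinearMap.range (btL b w)) = 2 := by
  rw [LinearMap.finrank_range_of_inj (h.btL_inj hw), finrank_fin_fun]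

theorem Hyp4.finrank_inf (h : Hyp4 f b ν) {v w : Fin 2 → F} (hv : v ≠ 0) (hw : w ≠ 0) :
    finrank F ↥(LinearMap.range (btR b v) ⊓ LinearMap.range (btL b w)) = 1 := by
  have h1 : LinearMap.range (btR b v) ⊓ LinearMap.range (btL b w) = Submodule.span F {bt b v w} := by
    apply le_antisymm
    · rintro _ ⟨⟨w', rfl⟩, ⟨z, hz⟩⟩
      change bt b z w = bt b v w' at hz
      change bt b v w' ∈ _
      have h3 : cr v z = 0 := by
        obtain ⟨y, hy⟩ := exists_cr_ne hw
        have h4 : f (bt b v w') (bt b v y) = 0 := by rw [h.form, cr_self]; ring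
        rw [← hz, h.form, hy, mul_one] at h4
        have h5 := (mul_eq_zero.1 h4).resolve_left h.ne
        have : cr v z = - cr z v := by unfold cr; ring
        rw [this, h5, neg_zero]
      obtain ⟨t, ht⟩ := exists_smul_of_cr hv h3
      rw [← hz, ht, bt_smul_left]
      exact Submodule.smul_mem _ _ (Submodule.mem_span_singleton_self _)
    · rw [Submodule.span_singleton_le_iff_mem]
      exact ⟨⟨w, rfl⟩, ⟨v, rfl⟩⟩
  rw [h1, finrank_span_singleton (h.ne_zero hv hw)]

end lines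

section main

variable {ι : Type} [Fintype ι] [DecidableEq ι] {F : Type*} [Field F] [Fintype F] {Q : QuadraticForm F (ι → F)}
  {n₁ : ℕ} {e : ι ≃ Fin n₁ × Fin 4} {P : Matrix.GeneralLinearGroup ι F}
  {f₁ : (Fin n₁ → F) → (Fin n₁ → F) → F} {f₂ : (Fin 4 → F) → (Fin 4 → F) → F}
  {b : Fin 2 → Fin 2 → (Fin 4 → F)} {ν c κ : F}

/-- elements of `Ω` preserve the two families of planes of the second factor -/
theorem good_of_commutator (hQ : (polarBilin Q).Nondegenerate) (h2 : (2 : F) ≠ 0) (hn₁ : Odd n₁)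
    (hb : Hyp4 f₂ b ν)
    (hform : ∀ x y x' y', polar Q (tvc e P (ptens x y)) (tvc e P (ptens x' y')) = c * (f₁ x x' * f₂ y y'))
    {g : OGrp Q} (hg : g ∈ commutator (OGrp Q)) (hκ : κ ≠ 0) {A : Matrix (Fin n₁) (Fin n₁) F}
    {B : Matrix (Fin 4) (Fin 4) F}
    (hAB : ∀ x y, (g : (ι → F) ≃ₗ[F] (ι → F)) (tvc e P (ptens x y)) = tvc e P (ptens (A *ᵥ x) (B *ᵥ y)))
    (hB : ∀ y y', f₂ (B *ᵥ y) (B *ᵥ y') = κ * f₂ y y') {v : Fin 2 → F} (hv : v ≠ 0) :
    ∃ p z0 z1 : Fin 2 → F, B *ᵥ (bt b v ![1, 0]) = bt b p z0 ∧ B *ᵥ (bt b v ![0, 1]) = bt b p z1 := by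
  rcases hb.dichotomy h2 (B := fun y => B *ᵥ y) hκ hB hv with h | ⟨q, z0, z1, hz0, hz1⟩
  · exact h
  exfalso
  have hcard : Fintype.card ι = n₁ * 4 := by
    rw [Fintype.card_congr e, Fintype.card_prod, Fintype.card_fin, Fintype.card_fin]
  have hn0 := hn₁.pos
  -- `q ≠ 0`
  have hq : q ≠ 0 := by
    rintro rfl
    rw [bt_zero_right] at hz0
    obtain ⟨v', hv'⟩ := exists_cr_ne hv
    have h6 := hB (bt b v ![1, 0]) (bt b v' ![0, 1])
    change B *ᵥ bt b v ![1, 0] = 0 at hz0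
    rw [hz0, hb.form, hv', ← zero_smul F (0 : Fin 4 → F), hb.smul_left] at h6
    have h7 : cr (![1, 0] : Fin 2 → F) ![0, 1] = 1 := by simp [cr]
    rw [h7] at h6
    exact mul_ne_zero hκ hb.ne (by linear_combination -h6)
  set W := LinearMap.range (btR b v) with hW
  set W' := LinearMap.range (btL b q) with hW'
  have hmap : ∀ y ∈ W, B *ᵥ y ∈ W' := by
    rintro _ ⟨w, rfl⟩
    have h3 : btR b v w = w 0 • bt b v ![1, 0] + w 1 • bt b v ![0, 1] := by
      rw [← bt_smul_right, ← bt_smul_right, ← bt_add_right]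
      change bt b v w = _
      congr 1
      funext i
      fin_cases i <;> simp
    rw [h3, Matrix.mulVec_add, Matrix.mulVec_smul, Matrix.mulVec_smul]
    change w 0 • (B *ᵥ bt b v ![1, 0]) + w 1 • (B *ᵥ bt b v ![0, 1]) ∈ W'
    have h4 : B *ᵥ bt b v ![1, 0] = bt b z0 q := hz0
    have h5 : B *ᵥ bt b v ![0, 1] = bt b z1 q := hz1
    rw [h4, h5]
    exact W'.add_mem (W'.smul_mem _ ⟨z0, rfl⟩) (W'.smul_mem _ ⟨z1, rfl⟩)
  have hW0 : ∀ y ∈ W, ∀ y' ∈ W, f₂ y y' = 0 := by
    rintro _ ⟨w, rfl⟩ _ ⟨w', rfl⟩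
    change f₂ (bt b v w) (bt b v w') = 0
    rw [hb.form, cr_self]; ring
  have hTS : TS Q (TU e P W) := by
    rintro _ ⟨y, rfl⟩
    have h1 : polar Q (fam e P W y) (fam e P W y) = 0 := by
      rw [fam_eq_sum, ← polarBilin_apply_apply, map_sum]
      refine Finset.sum_eq_zero fun i _ => ?_
      rw [map_sum, LinearMap.sum_apply]
      refine Finset.sum_eq_zero fun j _ => ?_
      rw [polarBilin_apply_apply, hform, hW0 _ (y j).2 _ (y i).2, mul_zero, mul_zero]
    rw [pself] at h1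
    exact (mul_eq_zero.1 h1).resolve_left h2
  have hgmap : (TU e P W).map ((g : (ι → F) ≃ₗ[F] (ι → F)) : (ι → F) →ₗ[F] (ι → F)) = TU e P W' := by
    refine Submodule.eq_of_le_of_finrank_eq ?_ ?_
    · rintro _ ⟨_, ⟨y, rfl⟩, rfl⟩
      change (g : (ι → F) ≃ₗ[F] (ι → F)) (fam e P W y) ∈ _
      rw [fam_eq_sum, map_sum]
      refine Submodule.sum_mem _ fun i _ => ?_
      rw [hAB]
      exact tau_mem_TU _ (hmap _ (y i).2)
    · rw [finrank_map_OGrp, finrank_TU, finrank_TU, hb.finrank_R hv, hb.finrank_L hq]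
  obtain ⟨l, hl, hev, -⟩ := exists_of_mem_commutator
    (RGrp_top_of_card hQ (Or.inl (fun h => by
      have := two_eq_zero_of_card_two h
      exact h2 this))) hg
  have hpar := (parity_TS hQ (m := n₁ * 2) (by rw [finrank_fintype_fun_eq_card, hcard]; ring) hTS
    (by rw [finrank_TU, hb.finrank_R hv]) l).2 hev
  rw [hl, hgmap, TU_inf, finrank_TU, hb.finrank_inf hv hq] at hpar
  have : n₁ * 2 - n₁ * 1 = n₁ := by omega
  rw [this] at hpar
  exact (Nat.not_even_iff_odd.2 hn₁) hpar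


/-- the alternating matrix -/
def jm (F : Type*) [Field F] : Matrix (Fin 2) (Fin 2) F := !![0, 1; -1, 0]

theorem jm_det : (jm F).det = 1 := by simp [jm, Matrix.det_fin_two]

theorem jm_transpose : (jm F)ᵀ = -jm F := by
  ext i j
  fin_cases i <;> fin_cases j <;> simp [jm]

theorem Hyp4.gram (hb : Hyp4 f₂ b ν) (a w a' w' : Fin 2) : f₂ (b a w) (b a' w') = ν * (jm F a a' * jm F w w') := by
  fin_cases a <;> fin_cases w <;> fin_cases a' <;> fin_cases w' <;>
    simp [jm, hb.g01, hb.g10, hb.h01, hb.h10, hb.s0, hb.s1, hb.s2, hb.s3, hb.z1, hb.z2, hb.z3, hb.z4, hb.z5, hb.z6,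
      hb.z7, hb.z8]

theorem bt_eq_sum (b : Fin 2 → Fin 2 → (Fin 4 → F)) (v w : Fin 2 → F) :
    bt b v w = ∑ a, ∑ a', (v a * w a') • b a a' := by
  rw [Fin.sum_univ_two, Fin.sum_univ_two, Fin.sum_univ_two, bt]
  abel

/-- the second Gram matrix -/
def gm2 (G₁ : Matrix (Fin n₁) (Fin n₁) F) : Matrix (Fin (n₁ * 2)) (Fin (n₁ * 2)) F :=
  (G₁ ⊗ₖ jm F).submatrix (finProdFinEquiv (m := n₁) (n := 2)).symm (finProdFinEquiv (m := n₁) (n := 2)).symm

theorem gm2_det {G₁ : Matrix (Fin n₁) (Fin n₁) F} (h : G₁.det ≠ 0) : (gm2 G₁).det ≠ 0 := by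
  rw [gm2, Matrix.det_submatrix_equiv_self, Matrix.det_kronecker, jm_det, one_pow, mul_one]
  exact pow_ne_zero _ h

theorem gm2_transpose {G₁ : Matrix (Fin n₁) (Fin n₁) F} (h : G₁ᵀ = G₁) : (gm2 G₁)ᵀ = - gm2 G₁ := by
  rw [gm2, Matrix.transpose_submatrix, ← Matrix.kroneckerMap_transpose, h, jm_transpose]
  ext i j
  simp [Matrix.kroneckerMap_apply]

/-- the vectors of the new decomposition -/
noncomputable def nv (e : ι ≃ Fin n₁ × Fin 4) (P : Matrix.GeneralLinearGroup ι F) (b : Fin 2 → Fin 2 → (Fin 4 → F))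
    (p : Fin 2 × Fin (n₁ * 2)) : ι → F :=
  tvc e P (ptens (Pi.single ((finProdFinEquiv (m := n₁) (n := 2)).symm p.2).1 1)
    (b p.1 ((finProdFinEquiv (m := n₁) (n := 2)).symm p.2).2))

theorem nv_gram (hb : Hyp4 f₂ b ν)
    (hform : ∀ x y x' y', polar Q (tvc e P (ptens x y)) (tvc e P (ptens x' y')) = c * (f₁ x x' * f₂ y y')) :
    Asch.EForm.gramB (polar ⇑Q) (nv e P b) = (c * ν) • (jm F ⊗ₖ gm2 (gramMatrix f₁)) := by
  ext p p'
  rw [Asch.EForm.gramB, nv, nv, hform, hb.gram, Matrix.smul_apply, smul_eq_mul, Matrix.kroneckerMap_apply, gm2,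
    Matrix.submatrix_apply, Matrix.kroneckerMap_apply, gramMatrix]
  ring

theorem exists_nv_basis (hb : Hyp4 f₂ b ν) (hc : c ≠ 0) (hG : (gramMatrix f₁).det ≠ 0)
    (hform : ∀ x y x' y', polar Q (tvc e P (ptens x y)) (tvc e P (ptens x' y')) = c * (f₁ x x' * f₂ y y')) :
    ∃ bb : Basis (Fin 2 × Fin (n₁ * 2)) F (ι → F), ∀ p, bb p = nv e P b p := by
  have hgram := nv_gram hb hform
  have hdet : ((c * ν) • (jm F ⊗ₖ gm2 (gramMatrix f₁))).det ≠ 0 := by
    rw [Matrix.det_smul, Matrix.det_kronecker, jm_det]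
    exact mul_ne_zero (pow_ne_zero _ (mul_ne_zero hc hb.ne)) (mul_ne_zero (by simp) (pow_ne_zero _ (gm2_det hG)))
  have hli : LinearIndependent F (nv e P b) := by
    rw [Fintype.linearIndependent_iff]
    intro x hx
    have h1 : x ᵥ* ((c * ν) • (jm F ⊗ₖ gm2 (gramMatrix f₁))) = 0 := by
      rw [← hgram]
      funext p'
      have h2 : polar Q (∑ p, x p • nv e P b p) (nv e P b p') = 0 := by
        rw [hx, ← polarBilin_apply_apply, map_zero, LinearMap.zero_apply]
      rw [← polarBilin_apply_apply, map_sum, LinearMap.sum_apply] at h2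
      rw [Matrix.vecMul, dotProduct, Pi.zero_apply, ← h2]
      refine Finset.sum_congr rfl fun p _ => ?_
      rw [map_smul, LinearMap.smul_apply, smul_eq_mul, polarBilin_apply_apply, Asch.EForm.gramB]
    have h3 := Matrix.eq_zero_of_vecMul_eq_zero hdet h1
    exact fun i => congrFun h3 i
  have hcard : Fintype.card (Fin 2 × Fin (n₁ * 2)) = finrank F (ι → F) := by
    rw [finrank_fintype_fun_eq_card, Fintype.card_congr e, Fintype.card_prod, Fintype.card_prod, Fintype.card_fin,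
      Fintype.card_fin, Fintype.card_fin, Fintype.card_fin]
    ring
  rcases isEmpty_or_nonempty (Fin 2 × Fin (n₁ * 2)) with hne | hne
  · have : finrank F (ι → F) = 0 := by rw [← hcard]; exact Fintype.card_eq_zero
    haveI : Subsingleton (ι → F) := Module.finrank_zero_iff.1 this
    exact ⟨Basis.empty _, fun p => hne.elim p⟩
  · exact ⟨basisOfLinearIndependentOfCardEqFinrank hli hcard, fun p => by
      rw [coe_basisOfLinearIndependentOfCardEqFinrank]⟩


/-- the tensor map as a bilinear map -/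
noncomputable def tmk (e : ι ≃ Fin n₁ × Fin 4) (P : Matrix.GeneralLinearGroup ι F) :
    (Fin n₁ → F) →ₗ[F] (Fin 4 → F) →ₗ[F] (ι → F) :=
  LinearMap.mk₂ F (fun x y => tvc e P (ptens x y)) (tau_std e P).add_left (tau_std e P).smul_left
    (fun x y y' => (tau_std e P).add_right x y y') (tau_std e P).smul_right

theorem tmk_apply (x : Fin n₁ → F) (y : Fin 4 → F) : tmk e P x y = tvc e P (ptens x y) := rfl

theorem mulVec_single_sum {κ : Type} [Fintype κ] [DecidableEq κ] (A : Matrix κ κ F) (i : κ) :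
    A *ᵥ (Pi.single i 1) = ∑ k, A k i • (Pi.single k (1 : F) : κ → F) := by
  funext j
  rw [Matrix.mulVec_single_one, Finset.sum_apply, Finset.sum_eq_single j]
  · simp
  · intro k _ hk
    simp [Pi.single_eq_of_ne hk.symm]
  · intro h; exact absurd (Finset.mem_univ j) h

/-- **class 4**: odd dimension times a four-dimensional space of plus type -/
theorem symm_tensor_le_sympl (hQ : (polarBilin Q).Nondegenerate) (h2 : (2 : F) ≠ 0) (hn₁ : Odd n₁)
    (hf₁ : IsSymmetricForm f₁) (hf₂ : IsSymmetricForm f₂) (hT : IsTensorFormStructure id (polar ⇑Q) f₁ f₂ e P)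
    (hp : IsPlusTypeOn (fun v : Fin 4 → F => f₂ v v) ⊤) :
    ∃ (e' : ι ≃ Fin 2 × Fin (n₁ * 2)) (P' : Matrix.GeneralLinearGroup ι F) (f₁' : (Fin 2 → F) → (Fin 2 → F) → F)
      (f₂' : (Fin (n₁ * 2) → F) → (Fin (n₁ * 2) → F) → F), IsSymplecticForm f₁' ∧ IsSymplecticForm f₂' ∧
      IsTensorFormStructure id (polar ⇑Q) f₁' f₂' e' P' ∧
      (∀ (x₁ : Fin 2 → F) (x₂ : Fin (n₁ * 2) → F),
        Q ((P' : Matrix ι ι F) *ᵥ ((fun a : Fin 2 × Fin (n₁ * 2) => x₁ a.1 * x₂ a.2) ∘ e')) = 0) ∧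
      tensorProductSubgroup n₁ 4 e P ⊓ omegaGL ⇑Q ≤ tensorProductSubgroup 2 (n₁ * 2) e' P' := by
  obtain ⟨c, hc, hform⟩ := tens_form hf₁.bilinear hf₂.bilinear hT
  obtain ⟨b, ν, hb⟩ := exists_hyp4 h2 hf₂ hp
  have hn0 := hn₁.pos
  have hsesq : Asch.IsSesq (RingEquiv.refl F) f₁ :=
    ⟨hf₁.bilinear.add_left, hf₁.bilinear.smul_left, hf₁.bilinear.add_right, hf₁.bilinear.smul_right⟩
  have hG : (gramMatrix f₁).det ≠ 0 := hsesq.gram_det_ne_zero fun v hv => (hf₁.nondegenerate v hv).2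
  have hGs : (gramMatrix f₁)ᵀ = gramMatrix f₁ := by
    ext i j
    exact hf₁.symm _ _
  obtain ⟨bb, hbb⟩ := exists_nv_basis (e := e) (P := P) hb hc hG hform
  have hgram : Asch.EForm.gramB (polar ⇑Q) bb = (c * ν) • (jm F ⊗ₖ gm2 (gramMatrix f₁)) := by
    rw [← nv_gram hb hform]
    ext p p'
    simp only [Asch.EForm.gramB, hbb]
  have hE := Asch.EForm.of_symmetric (Asch.isSymmetricForm_polar (isNondegenerateQuadraticForm_coe hQ))
  have e' : ι ≃ Fin 2 × Fin (n₁ * 2) := e.trans ((Fintype.equivOfCardEq (by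
    rw [Fintype.card_prod, Fintype.card_prod, Fintype.card_fin, Fintype.card_fin, Fintype.card_fin, Fintype.card_fin]
    ring)))
  have hst : IsTensorFormStructure id (polar ⇑Q) (formOfGram id (jm F)) (formOfGram id (gm2 (gramMatrix f₁))) e'
      (Asch.basisGL bb e') := Asch.isTensorFormStructure_of_gram hE bb e' (mul_ne_zero hc hb.ne) hgram
  have hs₁ : IsSymplecticForm (formOfGram id (jm F)) :=
    Asch.isSymplecticForm_formOfGram_of_two (by rw [jm_det]; exact one_ne_zero) jm_transpose h2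
  have hs₂ : IsSymplecticForm (formOfGram id (gm2 (gramMatrix f₁))) :=
    Asch.isSymplecticForm_formOfGram_of_two (gm2_det hG) (gm2_transpose hGs) h2
  refine ⟨e', Asch.basisGL bb e', _, _, hs₁, hs₂, hst, ?_, ?_⟩
  · intro x₁ x₂
    obtain ⟨c', -, hform'⟩ := tens_form hs₁.bilinear hs₂.bilinear hst
    have h3 := hform' x₁ x₂ x₁ x₂
    rw [hs₁.alternating, zero_mul, mul_zero, pself] at h3
    exact (mul_eq_zero.1 h3).resolve_left h2
  · refine (inf_omegaGL_le_iff Q _ _).2 fun g hg hM => ?_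
    obtain ⟨A, B, hAB⟩ := tens_act hM
    have hAB' : ∀ x y, (g : (ι → F) ≃ₗ[F] (ι → F)) (tvc e P (ptens x y)) =
        tvc e P (ptens ((A : Matrix (Fin n₁) (Fin n₁) F) *ᵥ x) ((B : Matrix (Fin 4) (Fin 4) F) *ᵥ y)) := by
      intro x y
      rw [← hAB, toGL_mulVec]
    -- the similarity factor of `B`
    have hprod : ∀ x x' y y', f₁ ((A : Matrix (Fin n₁) (Fin n₁) F) *ᵥ x) ((A : Matrix (Fin n₁) (Fin n₁) F) *ᵥ x') *
        f₂ ((B : Matrix (Fin 4) (Fin 4) F) *ᵥ y) ((B : Matrix (Fin 4) (Fin 4) F) *ᵥ y') = f₁ x x' * f₂ y y' := by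
      intro x x' y y'
      have h3 := OGrp_polar g (tvc e P (ptens x y)) (tvc e P (ptens x' y'))
      rw [hAB', hAB', hform, hform] at h3
      exact mul_left_cancel₀ hc h3
    obtain ⟨x, x', hx⟩ : ∃ x x', f₁ x x' ≠ 0 := by
      have h0 : (Pi.single ⟨0, hn0⟩ 1 : Fin n₁ → F) ≠ 0 := fun h =>
        one_ne_zero (α := F) (by simpa using congrFun h ⟨0, hn0⟩)
      obtain ⟨-, ⟨y, hy⟩⟩ := hf₁.nondegenerate _ h0
      exact ⟨_, _, hy⟩
    have hκ0 : f₁ ((A : Matrix (Fin n₁) (Fin n₁) F) *ᵥ x) ((A : Matrix (Fin n₁) (Fin n₁) F) *ᵥ x') ≠ 0 := by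
      intro h0
      have h3 := hprod x x' (b 0 0) (b 1 1)
      rw [h0, zero_mul, hb.g01] at h3
      exact mul_ne_zero hx hb.ne h3.symm
    have hBs : ∀ y y', f₂ ((B : Matrix (Fin 4) (Fin 4) F) *ᵥ y) ((B : Matrix (Fin 4) (Fin 4) F) *ᵥ y') =
        (f₁ x x' / f₁ ((A : Matrix (Fin n₁) (Fin n₁) F) *ᵥ x) ((A : Matrix (Fin n₁) (Fin n₁) F) *ᵥ x')) * f₂ y y' := by
      intro y y'
      have h3 := hprod x x' y y'
      field_simp
      linear_combination h3
    have hκ : f₁ x x' / f₁ ((A : Matrix (Fin n₁) (Fin n₁) F) *ᵥ x) ((A : Matrix (Fin n₁) (Fin n₁) F) *ᵥ x') ≠ 0 :=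
      div_ne_zero hx hκ0
    obtain ⟨c0, c1, d0, d1, hcc, hdd, g1, g2, g3, g4⟩ := hb.factor (B := fun y => (B : Matrix (Fin 4) (Fin 4) F) *ᵥ y)
      (fun y y' => Matrix.mulVec_add _ _ _) hκ hBs
      (fun v hv => good_of_commutator hQ h2 hn₁ hb hform hg hκ hAB' hBs hv)
    -- the matrices
    let C : Matrix (Fin 2) (Fin 2) F := Matrix.of fun a' a => (![c0, c1] a) a'
    let D : Matrix (Fin 2) (Fin 2) F := Matrix.of fun a' a => (![d0, d1] a) a'
    have hC : C.det ≠ 0 := by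
      rw [Matrix.det_fin_two]
      simp only [C, Matrix.of_apply, Matrix.cons_val_zero, Matrix.cons_val_one, Matrix.cons_val_fin_one]
      intro h0; apply hcc; rw [cr, ← h0]; ring
    have hD : D.det ≠ 0 := by
      rw [Matrix.det_fin_two]
      simp only [D, Matrix.of_apply, Matrix.cons_val_zero, Matrix.cons_val_one, Matrix.cons_val_fin_one]
      intro h0; apply hdd; rw [cr, ← h0]; ring
    have hBb : ∀ a w, (B : Matrix (Fin 4) (Fin 4) F) *ᵥ (b a w) = ∑ a', ∑ w', (C a' a * D w' w) • b a' w' := by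
      intro a w
      have h5 : (B : Matrix (Fin 4) (Fin 4) F) *ᵥ (b a w) = bt b (![c0, c1] a) (![d0, d1] w) := by
        fin_cases a <;> fin_cases w
        · exact g1
        · exact g2
        · exact g3
        · exact g4
      rw [h5, bt_eq_sum]
      rfl
    let R : Matrix (Fin (n₁ * 2)) (Fin (n₁ * 2)) F := ((A : Matrix (Fin n₁) (Fin n₁) F) ⊗ₖ D).submatrix
      (finProdFinEquiv (m := n₁) (n := 2)).symm (finProdFinEquiv (m := n₁) (n := 2)).symm
    have hR : R.det ≠ 0 := by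
      rw [Matrix.det_submatrix_equiv_self, Matrix.det_kronecker]
      exact mul_ne_zero (pow_ne_zero _ (Matrix.GeneralLinearGroup.det_ne_zero A)) (pow_ne_zero _ hD)
    refine Asch.mem_tensorProductSubgroup bb e' (toGL g) (Matrix.GeneralLinearGroup.mkOfDetNeZero C hC)
      (Matrix.GeneralLinearGroup.mkOfDetNeZero R hR) ?_
    have hsum : ∀ p, (g : (ι → F) ≃ₗ[F] (ι → F)) (bb p) = ∑ p', (C ⊗ₖ R) p' p • bb p' := by
      rintro ⟨a, m⟩
      obtain ⟨⟨i, w⟩, rfl⟩ := (finProdFinEquiv (m := n₁) (n := 2)).surjective m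
      rw [Fintype.sum_prod_type, hbb, nv, hAB', mulVec_single_sum, hBb, ← tmk_apply]
      simp only [Equiv.symm_apply_apply]
      have h6 : ∀ Y, tmk e P (∑ k, (A : Matrix (Fin n₁) (Fin n₁) F) k i • (Pi.single k (1 : F) : Fin n₁ → F)) Y =
          ∑ k, (A : Matrix (Fin n₁) (Fin n₁) F) k i • tmk e P (Pi.single k (1 : F)) Y := by
        intro Y
        rw [map_sum, LinearMap.sum_apply]
        exact Finset.sum_congr rfl fun k _ => by rw [map_smul, LinearMap.smul_apply]
      have h7 : ∀ X, tmk e P X (∑ a', ∑ w', (C a' a * D w' w) • b a' w') =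
          ∑ a', ∑ w', (C a' a * D w' w) • tmk e P X (b a' w') := by
        intro X
        rw [map_sum]
        refine Finset.sum_congr rfl fun a' _ => ?_
        rw [map_sum]
        exact Finset.sum_congr rfl fun w' _ => by rw [map_smul]
      rw [h6, Finset.sum_congr rfl fun k _ => by rw [h7]]
      simp only [Finset.smul_sum, smul_smul]
      rw [Finset.sum_comm]
      refine Finset.sum_congr rfl fun a' _ => ?_
      rw [← (finProdFinEquiv (m := n₁) (n := 2)).sum_comp, Fintype.sum_prod_type]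
      refine Finset.sum_congr rfl fun k _ => Finset.sum_congr rfl fun w' _ => ?_
      rw [hbb, nv]
      simp only [Equiv.symm_apply_apply, Matrix.kroneckerMap_apply, R, Matrix.submatrix_apply]
      rw [tmk_apply]
      congr 1
      ring
    ext p' p
    rw [LinearMap.toMatrix_apply, toLin'_toGL]
    change bb.repr ((g : (ι → F) ≃ₗ[F] (ι → F)) (bb p)) p' = (C ⊗ₖ R) p' p
    rw [hsum, bb.repr_sum_self]

end main

end Cfsg.Agent.OCase
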