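import Cfsg.Agent.OMax.Tens33
import Cfsg.Agent.Orth.Arith

/-! The symmetric tensor decomposition `3 ⊗ n₂` over the field with three elements is never
maximal (the argument of row S5682 for an arbitrary non-degenerate form). -/

set_option autoImplicit false
open Cfsg

namespace Cfsg.Agent.OCase

open OMax Orth QuadraticMap
open scoped Matrix

theorem tens33_not_maximal {F : Type*} {ι : Type} [Field F] [Fintype F] [Fintype ι] [DecidableEq ι]
    (hq : Fintype.card F = 3) (Q : QuadraticForm F (ι → F))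
    (hQ : (QuadraticMap.polarBilin Q).Nondegenerate) (hfr : 5 ≤ Module.finrank F (ι → F))
    (n₂ : ℕ) (h2 : 3 < n₂) (e : ι ≃ Fin 3 × Fin n₂) (P : Matrix.GeneralLinearGroup ι F)
    (f₁ : (Fin 3 → F) → (Fin 3 → F) → F) (f₂ : (Fin n₂ → F) → (Fin n₂ → F) → F)
    (hf₁ : Cfsg.Geo.IsSymmetricForm f₁) (hf₂ : Cfsg.Geo.IsSymmetricForm f₂)
    (hT' : Cfsg.Geo.IsTensorFormStructure id (QuadraticMap.polar Q) f₁ f₂ e P) :
    ∃ K : Subgroup (Matrix.GeneralLinearGroup ι F),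
      Cfsg.Geo.tensorProductSubgroup 3 n₂ e P ⊓ Cfsg.Geo.omegaGL ⇑Q < K ∧
        K < Cfsg.Geo.omegaGL ⇑Q := by
  classical
  have h2' : (2 : F) ≠ 0 := Orth.two_ne_zero_of_odd (by rw [hq]; decide)
  obtain ⟨c, hc, hform⟩ := tens_form hf₁.bilinear hf₂.bilinear hT'
  set τ : (Fin 3 → F) → (Fin n₂ → F) → (ι → F) :=
    fun x y => tvc e P (ptens x y) with hτdef
  have hτ : Tau τ := tau_std e P
  have hΦ : ∀ x y x' y', polar Q (τ x y) (τ x' y') = c * (f₁ x x' * f₂ y y') := hform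
  obtain ⟨u, ε, hu⟩ := exists_fr3 hq hf₁
  have hτ0 : ∀ {x : Fin 3 → F} {y : Fin n₂ → F}, x ≠ 0 → y ≠ 0 → τ x y ≠ 0 := by
    intro x y hx hy h
    have e0 : τ x y = τ 0 y := by
      rw [h, ← zero_smul F (0 : Fin 3 → F), hτ.smul_left, zero_smul]
    obtain ⟨ν, h1, h2⟩ := hτ.inj 0 y x y e0.symm hx hy
    have hν : ν = 0 := (smul_eq_zero.1 h1.symm).resolve_right hx
    rw [hν, zero_smul] at h2
    exact hy h2
  have hu0 := hu.ne_zero hf₁.bilinear 0
  have hq2 : ∀ k y, 2 * Q (τ (u k) y) = c * (ε * f₂ y y) := by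
    intro k y
    rw [← pself, hΦ, hu.self]
  -- the second factor
  set q₂ := qOfBil hf₂.bilinear with hq₂def
  have hpol : ∀ x y, polar q₂ x y = 2 * f₂ x y := qOfBil_polar hf₂.bilinear hf₂.symm
  have hE : (⊤ : Submodule F (Fin n₂ → F)) ⊓ perp q₂ ⊤ = ⊥ := by
    rw [eq_bot_iff]
    rintro x ⟨-, hx⟩
    by_contra hx0
    obtain ⟨⟨y, hy⟩, -⟩ := hf₂.nondegenerate x (fun h => hx0 (by rw [h]; rfl))
    have : polar q₂ y x = 0 := hx y trivial
    rw [hpol] at this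
    exact hy ((mul_eq_zero.1 this).resolve_left h2')
  have hd : 3 ≤ Module.finrank F (⊤ : Submodule F (Fin n₂ → F)) := by
    rw [finrank_top, Module.finrank_fin_fun]; omega
  obtain ⟨a, -, ha0, hqa⟩ := sub_singular (Q := q₂) hE hd
  obtain ⟨b, -, hab, hqb⟩ := sub_nonsing_perp (Q := q₂) hE hd (e := a) trivial
  have hfa : f₂ a a = 0 := hqa
  have hfb : f₂ b b ≠ 0 := hqb
  have hfab : f₂ a b = 0 := by
    rw [hpol] at hab; exact (mul_eq_zero.1 hab).resolve_left h2'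
  have hb0 : b ≠ 0 := by
    intro h
    apply hfb
    have := hf₂.bilinear.smul_left 0 0 0
    rw [h]; simpa using this
  obtain ⟨⟨y, hy⟩, -⟩ := hf₂.nondegenerate a ha0
  have hqA : Q (τ (u 0) a) = 0 := by
    have := hq2 0 a
    rw [hfa, mul_zero, mul_zero] at this
    exact (mul_eq_zero.1 this).resolve_left h2'
  set K : Subgroup (Matrix.GeneralLinearGroup (ι) F) :=
    Cfsg.stabilizing (Cfsg.glToMat (ι) F) (TS τ u) with hK
  have hKmem : ∀ g : ↥(Cfsg.isometryGroup F ⇑Q),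
      (g : Matrix.GeneralLinearGroup (ι) F) ∈ K ↔
      ∀ v, v ∈ TS τ u ↔ (bridge Q g :
        (ι → F) ≃ₗ[F] (ι → F)) v ∈ TS τ u :=
    fun g => Iff.rfl
  refine ⟨K ⊓ Cfsg.Geo.omegaGL ⇑Q, lt_of_le_of_ne ?_ ?_, lt_of_le_of_ne inf_le_right ?_⟩
  · -- inclusion
    rintro g ⟨hgD, hgΩ⟩
    refine ⟨?_, hgΩ⟩
    have hgI : g ∈ Cfsg.isometryGroup F ⇑Q := omegaGL_le Q hgΩ
    have hfw : ∀ g' : ↥(Cfsg.isometryGroup F ⇑Q),
        (g' : Matrix.GeneralLinearGroup (ι) F) ∈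
          Cfsg.Geo.tensorProductSubgroup 3 n₂ e P → ∀ v ∈ TS τ u, (bridge Q g' :
        (ι → F) ≃ₗ[F] (ι → F)) v ∈ TS τ u := by
      intro g' hg' v hv
      obtain ⟨A, B, hAB⟩ := tens_act hg'
      exact pres_TS (Φ := polar Q) hq hτ hf₁ hu hc hΦ ⟨b, b, hfb⟩
        (g := fun v => (bridge Q g' :
          (ι → F) ≃ₗ[F] (ι → F)) v)
        (fun a b => OGrp_polar _ a b) (A := (A : Matrix (Fin 3) (Fin 3) F))
        (B := fun y => (B : Matrix (Fin n₂) (Fin n₂) F) *ᵥ y) (fun x y => hAB x y) hv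
    refine (hKmem ⟨g, hgI⟩).2 fun v => ⟨hfw ⟨g, hgI⟩ hgD v, fun h => ?_⟩
    have h1 := hfw (⟨g, hgI⟩ : ↥(Cfsg.isometryGroup F ⇑Q))⁻¹
      ((Cfsg.Geo.tensorProductSubgroup 3 n₂ e P).inv_mem hgD) _ h
    rwa [map_inv, coe_inv_apply_self] at h1
  · -- a Siegel element inside the first subspace
    intro heq
    have hAB0 : ∀ z, polar Q (τ (u 0) a) (τ (u 0) z) = c * (ε * f₂ a z) := by
      intro z; rw [hΦ, hu.self]
    have hABb : polar Q (τ (u 0) a) (τ (u 0) b) = 0 := by rw [hAB0, hfab]; ring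
    set E := eich Q (τ (u 0) a) (τ (u 0) b) hqA hABb with hEdef
    have hEΩ : E ∈ commutator (OGrp Q) := eich_mem_comm hQ (by omega) hqA hABb
    have hABnb : polar Q (τ (u 0) a) (-τ (u 0) b) = 0 := by rw [polar_neg_right, hABb, neg_zero]
    have hEinv : E⁻¹ = eich Q (τ (u 0) a) (-τ (u 0) b) hqA hABnb := by
      rw [inv_eq_iff_mul_eq_one, hEdef, eich_mul]
      refine OGrp_ext fun x => ?_
      rw [eich_apply, coe_one_apply, add_neg_cancel]; simp
    have hstep : ∀ (z : Fin n₂ → F) (hz : polar Q (τ (u 0) a) (τ (u 0) z) = 0),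
        ∀ v ∈ TS τ u, (eich Q (τ (u 0) a) (τ (u 0) z) hqA hz :
          (ι → F) ≃ₗ[F] (ι → F)) v ∈ TS τ u := by
      rintro z hz v ⟨k, y, rfl⟩
      by_cases hk : k = 0
      · subst hk
        rw [eich_apply]
        refine ⟨0, y + polar Q (τ (u 0) y) (τ (u 0) z) • a - polar Q (τ (u 0) y) (τ (u 0) a) • z -
          (Q (τ (u 0) z) * polar Q (τ (u 0) y) (τ (u 0) a)) • a, ?_⟩
        simp only [sub_eq_add_neg, ← neg_smul, hτ.add_right, hτ.smul_right]
      · rw [eich_fix hqA hz (by rw [hΦ, hu.orth k 0 hk]; ring)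
          (by rw [hΦ, hu.orth k 0 hk]; ring)]
        exact ⟨k, y, rfl⟩
    have hneg : -τ (u 0) b = τ (u 0) (-b) := by
      rw [← neg_one_smul F (τ (u 0) b), ← neg_one_smul F b, hτ.smul_right]
    have hEinv' : ∀ v ∈ TS τ u, ((E⁻¹ : OGrp Q) :
          (ι → F) ≃ₗ[F] (ι → F)) v ∈ TS τ u := by
      have hABnb' : polar Q (τ (u 0) a) (τ (u 0) (-b)) = 0 := by rw [← hneg]; exact hABnb
      intro v hv
      have h1 := hstep (-b) hABnb' v hv
      rw [hEinv]
      rw [eich_apply] at h1 ⊢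
      rw [hneg]; exact h1
    have hbg : bridge Q ((bridge Q).symm E) = E := MulEquiv.apply_symm_apply _ _
    have h1 : (((bridge Q).symm E : ↥(Cfsg.isometryGroup F ⇑Q)) :
        Matrix.GeneralLinearGroup (ι) F) ∈ K ⊓ Cfsg.Geo.omegaGL ⇑Q := by
      refine ⟨(hKmem _).2 fun v => ⟨fun hv => ?_, fun hv => ?_⟩, ?_⟩
      · rw [hbg]; exact hstep b hABb v hv
      · rw [hbg] at hv
        have := hEinv' _ hv
        rwa [coe_inv_apply_self] at this
      · change _ ∈ Cfsg.Geo.omegaGL ⇑Q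
        rw [mem_omegaGL_iff, hbg]; exact hEΩ
    rw [← heq] at h1
    obtain ⟨A, B, hAB⟩ := tens_act h1.1
    have hact : ∀ v, (((bridge Q).symm E : ↥(Cfsg.isometryGroup F ⇑Q)) :
        Matrix.GeneralLinearGroup (ι) F).val *ᵥ v =
        (E : (ι → F) ≃ₗ[F] (ι → F)) v := by
      intro v
      have := congrArg (fun g : OGrp Q =>
        (g : (ι → F) ≃ₗ[F] (ι → F)) v) hbg
      exact this
    have h2 := rigid (g := fun v =>
        (E : (ι → F) ≃ₗ[F] (ι → F)) v) hτ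
      hf₁.bilinear hu (A := fun x => (A : Matrix (Fin 3) (Fin 3) F) *ᵥ x)
      (B := fun y => (B : Matrix (Fin n₂) (Fin n₂) F) *ᵥ y)
      (fun x y => (hact _).symm.trans (hAB x y))
      (fun z => by
        change (E : (ι → F) ≃ₗ[F] (ι → F))
          (τ (u 1) z) = _
        rw [hEdef, eich_fix hqA hABb (by rw [hΦ, hu.orth 1 0 (by decide)]; ring)
          (by rw [hΦ, hu.orth 1 0 (by decide)]; ring)]) ha0
      (by
        change (E : (ι → F) ≃ₗ[F] (ι → F))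
          (τ (u 0) a) = _
        rw [hEdef, eich_fix hqA hABb (by rw [pself, hqA, mul_zero]) hABb]) b
    change (E : (ι → F) ≃ₗ[F] (ι → F))
      (τ (u 0) b) = _ at h2
    have hba : polar Q (τ (u 0) b) (τ (u 0) a) = 0 := by rw [pc, hABb]
    rw [hEdef, eich_apply, hba, hΦ, hu.self] at h2
    simp only [zero_smul, mul_zero, sub_zero, add_eq_left, smul_eq_zero] at h2
    rcases h2 with h2 | h2
    · exact mul_ne_zero hc (mul_ne_zero hu.eps hfb) h2
    · exact hτ0 hu0 ha0 h2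
  · -- a Siegel element moving the union
    intro heq
    have hAB1 : polar Q (τ (u 0) a) (τ (u 1) b) = 0 := by
      rw [hΦ, hu.orth 0 1 (by decide)]; ring
    set E := eich Q (τ (u 0) a) (τ (u 1) b) hqA hAB1 with hEdef
    have hEΩ : E ∈ commutator (OGrp Q) := eich_mem_comm hQ (by omega) hqA hAB1
    have hbg : bridge Q ((bridge Q).symm E) = E := MulEquiv.apply_symm_apply _ _
    have h1 : (((bridge Q).symm E : ↥(Cfsg.isometryGroup F ⇑Q)) :
        Matrix.GeneralLinearGroup (ι) F) ∈ Cfsg.Geo.omegaGL ⇑Q := by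
      rw [mem_omegaGL_iff, hbg]; exact hEΩ
    rw [← heq] at h1
    have h3 := ((hKmem _).1 h1.1 (τ (u 0) y)).1 ⟨0, y, rfl⟩
    rw [hbg, hEdef, eich_apply] at h3
    have e1 : polar Q (τ (u 0) y) (τ (u 1) b) = 0 := by
      rw [hΦ, hu.orth 0 1 (by decide)]; ring
    have e2 : polar Q (τ (u 0) y) (τ (u 0) a) = c * (ε * f₂ y a) := by rw [hΦ, hu.self]
    have e20 : c * (ε * f₂ y a) ≠ 0 := mul_ne_zero hc (mul_ne_zero hu.eps hy)
    rw [e1, e2] at h3
    set s := c * (ε * f₂ y a)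
    have e3 : τ (u 0) y + (0 : F) • τ (u 0) a - s • τ (u 1) b - (Q (τ (u 1) b) * s) • τ (u 0) a =
        τ (u 0) (y + (-(Q (τ (u 1) b) * s)) • a) + τ (u 1) ((-s) • b) := by
      rw [hτ.add_right, hτ.smul_right, hτ.smul_right, neg_smul, neg_smul, zero_smul]
      abel
    rw [e3] at h3
    refine add_not_mem_TS (Φ := polar Q) hu hc hΦ (fun a b d => pal Q a b d)
      (fun z hz => (hf₂.nondegenerate z hz).2) ?_ (smul_ne_zero (neg_ne_zero.2 e20) hb0) h3
    intro h5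
    apply hy
    have h6 : y = (Q (τ (u 1) b) * s) • a := by
      rw [neg_smul, ← sub_eq_add_neg, sub_eq_zero] at h5; exact h5
    rw [h6, hf₂.bilinear.smul_left, hfa, mul_zero]

end Cfsg.Agent.OCase
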